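import Cfsg.Agent.Blocks.HalfDegree.Ineq
import Cfsg.Agent.Screen.BrauerP.Reduce
import Cfsg.Agent.DegreeGraph.AbelianNormal
import Cfsg.Agent.S0494
import Mathlib.LinearAlgebra.Matrix.SpecialLinearGroup

/-!
A group with `p` dividing its order once and a faithful character of degree `(p - 1) / 2`: modulo
the centre it is `PSL(2, p)`.
-/

set_option autoImplicit false
set_option linter.unusedSectionVars false
set_option linter.style.haveILetI false

namespace Cfsg.Agent.Blocks.HalfDegree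

open Cfsg Cfsg.Agent Cfsg.Agent.Blocks Cfsg.Agent.BlockChar Cfsg.Agent.Chars2.Cyc Function
  Screen.BrauerP
open scoped ComplexConjugate

universe u

variable {G : Type u} [Group G] [Fintype G] {p m K e : ℕ} [hp : Fact p.Prime] {M : Ideal AlgInt}
  [M.IsMaximal] {x : G} {σ : ℂ ≃+* ℂ} {H : Subgroup G} [Fintype H] {φ : IrrCharacter G}

theorem sum_range_eq_sum_zmod (F : ℕ → ℂ) :
    ∑ j : ZMod p, F j.val = ∑ i ∈ Finset.range p, F i := by
  refine Finset.sum_bij (fun j _ => j.val) (fun j _ => Finset.mem_range.2 (ZMod.val_lt j))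
    (fun a _ b _ h => ZMod.val_injective p h) (fun i hi => ⟨(i : ZMod p), Finset.mem_univ _,
      ZMod.val_natCast_of_lt (Finset.mem_range.1 hi)⟩) fun j _ => rfl

namespace Half

theorem sum_Ico_sq (D : Half M p m K e x σ H φ) :
    ∑ i ∈ Finset.Ico 1 p, (φ : G → ℂ) (x ^ i) * conj ((φ : G → ℂ) (x ^ i)) =
      (e : ℂ) * ((e : ℂ) + 1) := by
  have h := D.sum_values_sq
  rw [sum_range_eq_sum_zmod (p := p) (fun i => (φ : G → ℂ) (x ^ i) * conj ((φ : G → ℂ) (x ^ i))),
    Finset.range_eq_Ico, Finset.sum_eq_sum_Ico_succ_bot hp.out.pos, pow_zero, D.apply_one,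
    map_natCast, ← D.e_cast] at h
  linear_combination h

open scoped Classical in
/-- The order is bounded. -/
theorem card_le (D : Half M p m K e x σ H φ) :
    Nat.card (Subgroup.normalizer ((Subgroup.zpowers x : Subgroup G) : Set G)) =
        p * e * Nat.card (Subgroup.center G) ∧
      Nat.card G ≤ 2 * (p * e) * (e + 1) * Nat.card (Subgroup.center G) := by
  have hreg1 : ¬ p ∣ orderOf (1 : G) := by rw [orderOf_one]; exact hp.out.not_dvd_one
  obtain ⟨μ₁, h1, ⟨B⟩⟩ := D.exists_blk (oneChar G) (by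
    rw [show charDegree ((oneChar G : IrrCharacter G) : G → ℂ) = 1 by simp [coe_oneChar, charDegree]]
    exact hp.out.not_dvd_one)
  have P := D.princ B h1
  obtain ⟨hNP, hsum⟩ := D.sum_sings_eq (B.card_sings D h1)
  refine ⟨hNP, ?_⟩
  have hφφ : Over (φ : G → ℂ) (fun z => (φ : G → ℂ) z / (e : ℂ)) := by
    intro z hz g
    obtain ⟨w, -, hwv⟩ := exists_scalar φ.2 hz
    have hz1 := hwv 1
    rw [one_mul, D.apply_one] at hz1
    have he0 : (e : ℂ) ≠ 0 := Nat.cast_ne_zero.2 (by have := D.two_le; omega)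
    simp only [hwv g, hz1, mul_div_assoc, div_self he0, mul_one]
  have hφ' : Over (gal σ φ : G → ℂ) (fun z => (φ : G → ℂ) z / (e : ℂ)) := by
    have := D.over_gal hφφ 1
    rwa [iterate_one] at this
  have hnorm : ∀ z ∈ Subgroup.center G,
      (φ : G → ℂ) z / (e : ℂ) * conj ((φ : G → ℂ) z / (e : ℂ)) = 1 := by
    intro z hz
    obtain ⟨w, hw, hwv⟩ := exists_scalar φ.2 hz
    have hz1 := hwv 1
    rw [one_mul, D.apply_one] at hz1
    have he0 : (e : ℂ) ≠ 0 := Nat.cast_ne_zero.2 (by have := D.two_le; omega)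
    rw [hz1, mul_div_assoc, div_self he0, mul_one, Complex.mul_conj', hw]
    simp
  set f : G → ℂ := fun g => (φ : G → ℂ) g * conj ((φ : G → ℂ) g) with hf
  set Fs : G → ℂ := fun g => (φ : G → ℂ) g * conj ((φ : G → ℂ) g) +
    (φ : G → ℂ) g * conj ((gal σ φ : G → ℂ) g) with hFs
  set h : G → ℂ := fun g => Fs g * conj (Fs g) with hh
  have hfS : (p : ℂ) * e * ∑ g ∈ sings p G, f g = (Nat.card G : ℂ) * (e * (e + 1)) := by
    rw [hsum f (fun a g => by simp only [hf, Chars.isClassFunction_irr φ g a]) (fun z hz g => by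
      simp only [hf, hφφ z hz g, map_mul]
      linear_combination ((φ : G → ℂ) g * conj ((φ : G → ℂ) g)) * hnorm z hz)]
    rw [← D.sum_Ico_sq]
  have hhS : (p : ℂ) * e * ∑ g ∈ sings p G, h g = (Nat.card G : ℂ) * (e * (e + 1)) := by
    have hFz : ∀ z ∈ Subgroup.center G, ∀ g : G, Fs (g * z) = Fs g := fun z hz g => by
      simp only [hFs, hφφ z hz g, hφ' z hz g, map_mul]
      linear_combination ((φ : G → ℂ) g * conj ((φ : G → ℂ) g) +
        (φ : G → ℂ) g * conj ((gal σ φ : G → ℂ) g)) * hnorm z hz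
    rw [hsum h (fun a g => by
      simp only [hh, hFs, Chars.isClassFunction_irr φ g a, Chars.isClassFunction_irr (gal σ φ) g a])
      (fun z hz g => by simp only [hh, hFz z hz g])]
    rw [← D.sum_Ico_sq]
    congr 1
    refine Finset.sum_congr rfl fun i hi => ?_
    have hi' : ¬ p ∣ i := fun hd => by
      have := Nat.le_of_dvd (Finset.mem_Ico.1 hi).1 hd
      have := (Finset.mem_Ico.1 hi).2
      omega
    simp only [hh, hFs]
    rw [← mul_add, ← map_add, D.add_gal_value hi', map_neg, map_one, map_mul, map_neg, map_one]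
    ring
  have hftot : ∑ g, f g = (Nat.card G : ℂ) := by
    have h2 := Chars.classInner_self_irr φ.2
    rw [Chars.classInner_def, inv_mul_eq_iff_eq_mul₀ Chars.card_ne_zero, mul_one] at h2
    exact h2
  have hhtot : ∑ g, h g = (Nat.card G : ℂ) * ((e : ℂ) + 1) := by
    obtain ⟨θa, θb, hab, hex, -, -⟩ := P.exists_a
    have hθa : θa ∉ B.X := by
      rcases hab with ⟨q, -⟩ | ⟨q, -⟩ <;> rw [q]
      exacts [B.θ_notMem, B.gal_notMem]
    have hFe : Fs = ∑ ψ ∈ insert θa B.X, (ψ : G → ℂ) := by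
      funext g
      rw [Finset.sum_insert hθa, Pi.add_apply, Finset.sum_apply, add_comm]
      exact hex g
    have h2 : classInner Fs Fs = (e : ℂ) + 1 := by
      rw [hFe, Chars.classInner_sum_left]
      simp only [Chars.classInner_sum_right, Chars.classInner_irrCharacter, Finset.sum_ite_eq,
        Finset.sum_ite_mem, Finset.inter_self, Finset.sum_const, nsmul_one,
        Finset.card_insert_of_notMem hθa, B.card_X]
      push_cast
      ring
    rw [Chars.classInner_def, inv_mul_eq_iff_eq_mul₀ Chars.card_ne_zero] at h2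
    exact h2
  have hR : ∀ g ∈ regs p G, h g = 4 * (f g * f g) := fun g hg => by
    simp only [hh, hFs, hf]
    rw [show (gal σ φ : G → ℂ) g = (φ : G → ℂ) g from D.S.gal_reg φ 1 (mem_regs.1 hg), map_add,
      map_mul, Complex.conj_conj]
    ring
  have h1f := sum_eq_sings_add_regs (p := p) f
  have h1h := sum_eq_sings_add_regs (p := p) h
  rw [hftot] at h1f
  rw [hhtot, Finset.sum_congr rfl hR, ← Finset.mul_sum] at h1h
  have hkey : 2 * (p : ℂ) * e * ((∑ g ∈ regs p G, f g * f g) - ∑ g ∈ regs p G, f g) =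
      (Nat.card G : ℂ) * (e * e * ((e : ℂ) - 1)) := by
    linear_combination (-((p : ℂ) * e / 2)) * h1h + (2 * (p : ℂ) * e) * h1f - (1 / 2 : ℂ) * hhS +
      2 * hfS + ((Nat.card G : ℂ) * e * (((e : ℂ) + 1) / 2 - 2)) * (D.e_cast.symm)
  -- real numbers
  set q : G → ℝ := fun g => ‖(φ : G → ℂ) g‖ ^ 2 with hq
  have hfq : ∀ g, f g = (q g : ℂ) := fun g => by
    simp only [hf, hq, Complex.mul_conj']
    push_cast
    ring
  simp only [hfq, ← Complex.ofReal_mul, ← Complex.ofReal_sum, ← Complex.ofReal_sub] at hkey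
  have hkeyR : 2 * (p : ℝ) * e * ((∑ g ∈ regs p G, q g * q g) - ∑ g ∈ regs p G, q g) =
      (Nat.card G : ℝ) * (e * e * ((e : ℝ) - 1)) := by exact_mod_cast hkey
  set Zs : Finset G := Finset.univ.filter fun g => g ∈ Subgroup.center G with hZs
  have hsub : Zs ⊆ regs p G := fun g hg =>
    mem_regs.2 (D.not_dvd_center (Finset.mem_filter.1 hg).2)
  have hbound : ∑ g ∈ regs p G, (q g * q g - q g) ≤
      (Nat.card (Subgroup.center G) : ℝ) * ((e : ℝ) ^ 2 * (e : ℝ) ^ 2 - (e : ℝ) ^ 2) := by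
    rw [← Finset.sum_sdiff hsub, Finset.sum_congr rfl
      (g := fun _ => ((e : ℝ) ^ 2 * (e : ℝ) ^ 2 - (e : ℝ) ^ 2)) (s₁ := Zs) fun g hg => ?_,
      Finset.sum_const, nsmul_eq_mul]
    · refine le_trans (add_le_add_left (Finset.sum_nonpos fun g hg => ?_) _) (le_of_eq ?_)
      · obtain ⟨hg1, hg2⟩ := Finset.mem_sdiff.1 hg
        have hgc : g ∉ Subgroup.center G := fun h => hg2 (Finset.mem_filter.2 ⟨Finset.mem_univ _, h⟩)
        have h2 := D.norm_le_one B h1 (mem_regs.1 hg1) hgc
        have h3 : q g ≤ 1 := pow_le_one₀ (norm_nonneg _) h2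
        have h4 : 0 ≤ q g := sq_nonneg _
        nlinarith
      · rw [zero_add, Nat.card_eq_fintype_card, Fintype.card_subtype]
    · obtain ⟨w, hw, hwv⟩ := exists_scalar φ.2 (Finset.mem_filter.1 hg).2
      have hz1 := hwv 1
      rw [one_mul, D.apply_one] at hz1
      simp only [hq, hz1, norm_mul, hw, one_mul, Complex.norm_natCast]
  rw [Finset.sum_sub_distrib] at hbound
  have hfin : (Nat.card G : ℝ) * ((e : ℝ) * e * ((e : ℝ) - 1)) ≤
      (2 * ((p : ℝ) * e) * ((e : ℝ) + 1) * Nat.card (Subgroup.center G)) *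
        ((e : ℝ) * e * ((e : ℝ) - 1)) := by
    rw [← hkeyR]
    refine (mul_le_mul_of_nonneg_left hbound (by positivity)).trans (le_of_eq ?_)
    ring
  have he2 : (2 : ℝ) ≤ e := by exact_mod_cast D.two_le
  have h5 : (Nat.card G : ℝ) ≤ 2 * ((p : ℝ) * e) * ((e : ℝ) + 1) * Nat.card (Subgroup.center G) := by
    refine le_of_mul_le_mul_right hfin ?_
    have : (0 : ℝ) < (e : ℝ) - 1 := by linarith
    positivity
  exact_mod_cast h5

/-- The number of Sylow subgroups and the quotient by the centre. -/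
theorem quotient_iso (D : Half M p m K e x σ H φ) :
    Nat.card (Sylow p G) = p + 1 ∧
      Nonempty (G ⧸ Subgroup.center G ≃* Matrix.ProjectiveSpecialLinearGroup (Fin 2) (ZMod p)) := by
  obtain ⟨hNP, hle⟩ := D.card_le
  have hc : Nat.card (Subgroup.zpowers x) = p ^ (Nat.card G).factorization p := by
    rw [D.S.vG, pow_one, Nat.card_zpowers, D.S.hx]
  set P : Sylow p G := Sylow.ofCard _ hc with hPdef
  have hPc : Nat.card P = p := by
    show Nat.card (P : Subgroup G) = p
    rw [hPdef, Sylow.coe_ofCard, Nat.card_zpowers, D.S.hx]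
  have hidx : Nat.card (Sylow p G) * (p * e * Nat.card (Subgroup.center G)) = Nat.card G := by
    rw [card_sylow_eq P, ← hNP, hPdef, Sylow.coe_ofCard, mul_comm]
    exact Subgroup.card_mul_index _
  have hpos : 0 < p * e * Nat.card (Subgroup.center G) :=
    Nat.mul_pos (Nat.mul_pos hp.out.pos (by have := D.two_le; omega)) Nat.card_pos
  have hn1 : Nat.card (Sylow p G) ≤ p + 1 := by
    refine Nat.le_of_mul_le_mul_right ?_ hpos
    rw [hidx]
    refine hle.trans (le_of_eq ?_)
    rw [show p + 1 = 2 * (e + 1) by have := D.he; omega]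
    ring
  have hn2 := succ_le_card_sylow D.perfect P hPc
  have hn : Nat.card (Sylow p G) = p + 1 := le_antisymm hn1 hn2
  refine ⟨hn, ?_⟩
  have hF : ¬ Formula p (Nat.card (Sylow p G)) := fun hF => by
    have h1 := hF.bound hp.out (by
      rw [hn, Nat.add_mod_left, Nat.mod_eq_of_lt hp.out.one_lt])
    rw [hn] at h1
    have := D.hp5
    nlinarith
  let e0 : G ⧸ pPrimeCore p G ≃* G ⧸ Subgroup.center G :=
    QuotientGroup.quotientMulEquivOfEq D.pPrimeCore_eq
  rcases core_quotient D.perfect P hPc hF with ⟨-, ⟨i⟩⟩ | ⟨a, F, iF, iFt, hpa, h3, hcF, ⟨i⟩⟩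
  · exact ⟨e0.symm.trans i⟩
  have hQ : Nat.card (G ⧸ Subgroup.center G) = (p + 1) * (p * e) := by
    have h1 := (Subgroup.center G).card_mul_index
    refine Nat.eq_of_mul_eq_mul_left (Nat.card_pos (α := Subgroup.center G)) ?_
    show _ * (Subgroup.center G).index = _
    rw [h1, ← hidx, hn]
    ring
  have ha1 : 1 ≤ a := by
    by_contra h0
    rw [show a = 0 by omega, pow_zero] at hpa
    have := D.hp5
    omega
  obtain ⟨hS, ⟨j⟩⟩ := card_sl2_even ha1 hcF
  have hp5' : p = 5 := by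
    have h1 : (p + 1) * (p * e) = 2 ^ a * ((2 ^ a) ^ 2 - 1) := by
      rw [← hS, ← hQ]
      exact Nat.card_congr (e0.symm.trans i).toEquiv
    have h2 : 1 ≤ (2 ^ a) ^ 2 := Nat.one_le_pow _ _ (by positivity)
    zify [h2] at h1
    have h4 : ((2 ^ a : ℕ) : ℤ) = 2 * e := by have := D.he; omega
    push_cast at h4
    rw [h4] at h1
    have hpZ : (p : ℤ) = 2 * e + 1 := by exact_mod_cast D.he.symm
    rw [hpZ] at h1
    have he2 : (2 : ℤ) ≤ e := by exact_mod_cast D.two_le
    have h5 : (2 * (e : ℤ) + 1) * (2 * e) * (2 - e) * 1 = 0 := by linear_combination h1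
    have : (e : ℤ) = 2 := by
      rcases mul_eq_zero.1 h5 with h6 | h6
      · rcases mul_eq_zero.1 h6 with h7 | h7
        · rcases mul_eq_zero.1 h7 with h8 | h8 <;> omega
        · omega
      · omega
    omega
  subst hp5'
  have hF4 : Fintype.card F = 4 := by omega
  haveI : IsSimpleGroup (Matrix.ProjectiveSpecialLinearGroup (Fin 2) F) :=
    Matrix.ProjectiveSpecialLinearGroup.rank_two_simple (by rw [Nat.card_eq_fintype_card, hF4])
  haveI : IsSimpleGroup (Matrix.ProjectiveSpecialLinearGroup (Fin 2) (ZMod 5)) :=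
    Matrix.ProjectiveSpecialLinearGroup.rank_two_simple (by simp)
  have h60 : Nat.card (Matrix.ProjectiveSpecialLinearGroup (Fin 2) (ZMod 5)) = 60 := by
    refine Nat.eq_of_mul_eq_mul_left (show 0 < 2 by norm_num) ?_
    exact two_mul_card_psl (p := 5) (by norm_num)
  have h60' : Nat.card (Matrix.ProjectiveSpecialLinearGroup (Fin 2) F) = 60 := by
    rw [← Nat.card_congr ((e0.symm.trans i).trans j).toEquiv, hQ]
    have := D.he
    rw [show e = 2 by omega]
  obtain ⟨k₁⟩ := S0494.result h60'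
  obtain ⟨k₂⟩ := S0494.result h60
  exact ⟨(((e0.symm.trans i).trans j).trans k₁).trans k₂.symm⟩

end Half

end Cfsg.Agent.Blocks.HalfDegree
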