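import Cfsg.Agent.Blocks.HalfDegree.Local

/-!
The block of positive defect attached to a character of the centre.
-/

set_option autoImplicit false
set_option linter.unusedSectionVars false
set_option linter.style.haveILetI false

namespace Cfsg.Agent.Blocks.HalfDegree

open Cfsg Cfsg.Agent Cfsg.Agent.Blocks Cfsg.Agent.BlockChar Cfsg.Agent.Chars2.Cyc Function
  Screen.BrauerP
open scoped ComplexConjugate

universe u

variable {G : Type u} [Group G]

/-- `ψ` lies over `μ` on the centre. -/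
def Over (ψ : G → ℂ) (μ : G → ℂ) : Prop :=
  ∀ z ∈ Subgroup.center G, ∀ g : G, ψ (g * z) = μ z * ψ g

variable [Fintype G]

/-- The members of the block over `μ`, their signs and values. -/
structure Blk (p K e : ℕ) (x : G) (σ : ℂ ≃+* ℂ) (μ : G → ℂ) where
  /-- The ordinary members. -/
  X : Finset (IrrCharacter G)
  /-- An exceptional member. -/
  θ : IrrCharacter G
  /-- The signs. -/
  ε : IrrCharacter G → ℤ
  /-- The sign of the exceptional members. -/
  W : ℤ
  gal_θ : gal σ (gal σ θ) = θ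
  ne_gal : θ ≠ gal σ θ
  θ_notMem : θ ∉ X
  gal_notMem : gal σ θ ∉ X
  gal_X : ∀ ψ ∈ X, gal σ ψ = ψ
  card_X : X.card = e
  overX : ∀ ψ ∈ X, Over (ψ : G → ℂ) μ
  overθ : Over (θ : G → ℂ) μ
  overθ' : Over (gal σ θ : G → ℂ) μ
  sign : ∀ ψ ∈ X, ε ψ = 1 ∨ ε ψ = -1
  sign_W : W = 1 ∨ W = -1
  X_value : ∀ ψ ∈ X, ∀ j : ℕ, (ψ : G → ℂ) (x ^ K ^ j) = (ε ψ : ℂ)
  Y_value : ∀ j : ℕ, (θ : G → ℂ) (x ^ K ^ j) + (gal σ θ : G → ℂ) (x ^ K ^ j) = (W : ℂ)
  Y_norm : (θ : G → ℂ) x * conj ((θ : G → ℂ) x) +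
    (gal σ θ : G → ℂ) x * conj ((gal σ θ : G → ℂ) x) = (p : ℂ) - e
  Y_cross : (θ : G → ℂ) x * conj ((θ : G → ℂ) (x ^ K)) +
    (gal σ θ : G → ℂ) x * conj ((gal σ θ : G → ℂ) (x ^ K)) = -(e : ℂ)
  vanish : ∀ ψ : IrrCharacter G, Over (ψ : G → ℂ) μ → ψ ∉ X → ψ ≠ θ → ψ ≠ gal σ θ →
    ∀ j : ℕ, (ψ : G → ℂ) (x ^ K ^ j) = 0
  X_deg : ∀ ψ ∈ X, (p : ℤ) ∣ (charDegree (ψ : G → ℂ) : ℤ) - ε ψ
  θ_deg : (p : ℤ) ∣ (charDegree (θ : G → ℂ) : ℤ) + (e : ℤ) * W
  gal_reg : ∀ g : G, ¬ p ∣ orderOf g → (gal σ θ : G → ℂ) g = (θ : G → ℂ) g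
  relation : ∀ g : G, ¬ p ∣ orderOf g →
    (∑ ψ ∈ X, (ε ψ : ℂ) * (ψ : G → ℂ) g) + (W : ℂ) * (θ : G → ℂ) g = 0

variable {p m K e : ℕ} [hp : Fact p.Prime] {M : Ideal AlgInt} [M.IsMaximal] {x : G}
  {σ : ℂ ≃+* ℂ} {H : Subgroup G} [Fintype H] {φ : IrrCharacter G}

namespace Half

theorem pow_center (D : Half M p m K e x σ H φ) {z : G} (hz : z ∈ Subgroup.center G) (r : ℕ) :
    z ^ K ^ r = z := by
  induction r with
  | zero => rw [pow_zero, pow_one]
  | succ r ih => rw [pow_succ, pow_mul, ih, D.S.reg_pow D.S.hexp (D.not_dvd_center hz)]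

theorem over_gal (D : Half M p m K e x σ H φ) {χ : IrrCharacter G} {μ : G → ℂ}
    (h : Over (χ : G → ℂ) μ) (r : ℕ) : Over ((gal σ)^[r] χ : G → ℂ) μ := by
  intro z hz g
  rw [D.S.gal_value, D.S.gal_value]
  have hc : Commute g z := Subgroup.mem_center_iff.1 hz g
  rw [hc.mul_pow, D.pow_center hz, h z hz]

theorem mem_zpowers_of_commute (D : Half M p m K e x σ H φ) {y : G} (hy : orderOf y = p)
    (hc : Commute x y) : y ∈ Subgroup.zpowers x := by
  have h1 : IsPGroup p (Subgroup.zpowers y) :=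
    IsPGroup.of_card (n := 1) (by rw [Nat.card_zpowers, hy, pow_one])
  have h2 : IsPGroup p (Subgroup.zpowers x) :=
    IsPGroup.of_card (n := 1) (by rw [Nat.card_zpowers, D.S.hx, pow_one])
  have hn : Subgroup.zpowers y ≤
      Subgroup.normalizer ((Subgroup.zpowers x : Subgroup G) : Set G) := by
    refine le_trans ?_ (Subgroup.centralizer_le_normalizer _)
    rw [Subgroup.zpowers_le, D.S.centralizer_zpowers, D.S.hH,
      Subgroup.mem_centralizer_singleton_iff]
    exact hc.symm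
  obtain ⟨k, hk⟩ := IsPGroup.iff_card.1 (IsPGroup.to_sup_of_normal_right' h1 h2 hn)
  have hk1 : k ≤ 1 := by
    by_contra hlt
    have h3 : p ^ 2 ∣ Nat.card G :=
      ((pow_dvd_pow p (by omega)).trans (dvd_of_eq hk.symm)).trans (Subgroup.card_subgroup_dvd_card _)
    rw [D.S.card, sq] at h3
    exact D.S.hm (Nat.dvd_of_mul_dvd_mul_left hp.out.pos h3)
  have he : Subgroup.zpowers x = Subgroup.zpowers y ⊔ Subgroup.zpowers x := by
    refine Subgroup.eq_of_le_of_card_ge le_sup_right ?_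
    rw [hk, Nat.card_zpowers, D.S.hx]
    exact (Nat.pow_le_pow_right hp.out.pos hk1).trans (pow_one p).le
  rw [he]
  exact (le_sup_left : _ ≤ Subgroup.zpowers y ⊔ Subgroup.zpowers x) (Subgroup.mem_zpowers y)

/-- The centralizer of `x` is the product of its powers and the centre. -/
theorem exists_decomp (D : Half M p m K e x σ H φ) (c : H) :
    ∃ i : ℕ, ∃ z ∈ Subgroup.center G, (c : G) = x ^ i * z := by
  by_cases hc : p ∣ orderOf (c : G)
  · obtain ⟨a, j, z, hz, he⟩ := D.exists_form hc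
    have hy : a * x ^ K ^ j * a⁻¹ = (c : G) * z⁻¹ := by
      rw [he]
      have hz' := Subgroup.mem_center_iff.1 hz
      calc a * x ^ K ^ j * a⁻¹ = a * x ^ K ^ j * (a⁻¹ * z) * z⁻¹ := by group
        _ = a * x ^ K ^ j * (z * a⁻¹) * z⁻¹ := by rw [hz' a⁻¹]
        _ = _ := by group
    have hord : orderOf (a * x ^ K ^ j * a⁻¹) = p := by
      have h1 := (MulAut.conj a).orderOf_eq (x ^ K ^ j)
      rw [MulAut.conj_apply] at h1
      rw [h1]
      exact orderOf_eq_prime (by rw [← pow_mul, mul_comm, pow_mul, ← D.S.hx, pow_orderOf_eq_one,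
        one_pow]) (D.S.pow_ne_one j)
    have hcomm : Commute x (a * x ^ K ^ j * a⁻¹) := by
      rw [hy]
      exact (D.S.comm c).mul_right (Subgroup.mem_center_iff.1 (Subgroup.inv_mem _ hz) x)
    have hmem := D.mem_zpowers_of_commute hord hcomm
    rw [hy] at hmem
    obtain ⟨r, -, hr⟩ := D.S.exists_pow_of_mem hmem (by
      rw [← hy]; intro h; exact D.S.pow_ne_one j (conj_eq_one_iff.1 h))
    exact ⟨K ^ r, z, hz, by rw [← hr, inv_mul_cancel_right]⟩
  · exact ⟨0, c, D.mem_center_of_regular c (by rwa [← Subgroup.orderOf_coe]),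
      by rw [pow_zero, one_mul]⟩

theorem comm_H (D : Half M p m K e x σ H φ) (a b : H) : a * b = b * a := by
  obtain ⟨i, z, hz, hi⟩ := D.exists_decomp a
  obtain ⟨j, w, hw, hj⟩ := D.exists_decomp b
  refine Subtype.ext ?_
  rw [Subgroup.coe_mul, Subgroup.coe_mul, hi, hj]
  have hz' := Subgroup.mem_center_iff.1 hz
  have hw' := Subgroup.mem_center_iff.1 hw
  calc x ^ i * z * (x ^ j * w) = x ^ i * (x ^ j * w * z) := by rw [mul_assoc, hz' (x ^ j * w)]
    _ = x ^ (j + i) * (w * z) := by rw [pow_add, ← pow_mul_comm x i j]; group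
    _ = x ^ j * (x ^ i * w) * z := by rw [pow_add]; group
    _ = x ^ j * (w * x ^ i) * z := by rw [hw' (x ^ i)]
    _ = _ := by group

open scoped Classical in
/-- The block attached to the central character of a character of degree prime to `p`. -/
theorem exists_blk (D : Half M p m K e x σ H φ) (ψ₀ : IrrCharacter G)
    (hdeg : ¬ p ∣ charDegree (ψ₀ : G → ℂ)) :
    ∃ μ : G → ℂ, Over (ψ₀ : G → ℂ) μ ∧ Nonempty (Blk p K e x σ μ) := by
  set S := D.S with hS
  set B := blockOf M (ψ₀ : G → ℂ) with hB'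
  have hB : IsPBlock M B := isPBlock_blockOf ψ₀
  have hψB : ψ₀ ∈ B := mem_blockOf_self ψ₀
  have hd : 0 < blockDefect p B := by
    have hle : sInf ((fun χ : IrrCharacter G => (charDegree (χ : G → ℂ)).factorization p) '' B) ≤
        (charDegree (ψ₀ : G → ℂ)).factorization p := Nat.sInf_le ⟨ψ₀, hψB, rfl⟩
    have hz : (charDegree (ψ₀ : G → ℂ)).factorization p = 0 :=
      Nat.factorization_eq_zero_of_not_dvd hdeg
    rw [blockDefect, S.vG]
    omega
  obtain ⟨b₀, hind⟩ := S.exists_induced hB hd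
  choose θf hθf1 hθf2 using fun b : {b : Set (IrrCharacter H) // IsPBlock M b} =>
    S.exists_trivial b.2
  have hlin : ∀ η : IrrCharacter H, (η : H → ℂ) 1 = 1 := fun η =>
    Chars.irr_apply_one_of_comm D.comm_H η.2
  have hhom : ∀ (η : IrrCharacter H) (a b : H),
      (η : H → ℂ) (a * b) = (η : H → ℂ) a * (η : H → ℂ) b := fun η a b => by
    obtain ⟨f, hf⟩ := Chars.exists_hom_of_degree_one (Chars.irr_isCharacter η) (hlin η)
    simp only [hf, map_mul, Units.val_mul]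
  have hunit : ∀ (η : IrrCharacter H) (a : H), (η : H → ℂ) a * conj ((η : H → ℂ) a) = 1 :=
    fun η a => by
    obtain ⟨f, hf⟩ := Chars.exists_hom_of_degree_one (Chars.irr_isCharacter η) (hlin η)
    have h1 : ‖(η : H → ℂ) a‖ = 1 := by
      rw [hf]
      refine Complex.norm_eq_one_of_pow_eq_one ?_ (orderOf_pos a).ne'
      rw [← Units.val_pow_eq_pow_val, ← map_pow, pow_orderOf_eq_one, map_one, Units.val_one]
    rw [Complex.mul_conj', h1]
    simp
  -- a nonzero decomposition number determines the central character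
  have L1 : ∀ (χ : IrrCharacter G) (b : {b : Set (IrrCharacter H) // IsPBlock M b}),
      dB x b.1 χ ≠ 0 → ∀ (z : G) (hz : z ∈ Subgroup.center G),
      ∀ g : G, (χ : G → ℂ) (g * z) = (θf b : H → ℂ) ⟨z, D.center_le hz⟩ * (χ : G → ℂ) g := by
    intro χ b hne z hz g
    obtain ⟨w, -, hwv⟩ := exists_scalar χ.2 hz
    rw [hwv]
    congr 1
    obtain ⟨η, hη, hηne⟩ := Finset.exists_ne_zero_of_sum_ne_zero hne
    set z' : H := ⟨z, D.center_le hz⟩
    have hz'reg : ¬ p ∣ orderOf z' := by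
      rw [← Subgroup.orderOf_coe]; exact D.not_dvd_center hz
    have hηz : (η : H → ℂ) z' = (θf b : H → ℂ) z' :=
      (S.block_loc b.2 (hθf1 b) (hθf2 b)).1 η (mem_bf.1 hη) z' hz'reg
    set I := classInner (fun c : H => (χ : G → ℂ) (x * (c : G))) (η : H → ℂ) with hI
    have hshift : I = w * conj ((η : H → ℂ) z') * I := by
      rw [hI, Chars.classInner_def, ← mul_assoc, mul_comm (w * _), mul_assoc]
      congr 1
      rw [Finset.mul_sum]
      refine (Fintype.sum_equiv (Equiv.mulRight z') _ _ fun c => ?_).symm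
      show _ = (χ : G → ℂ) (x * ((c * z' : H) : G)) * conj ((η : H → ℂ) (c * z'))
      rw [Subgroup.coe_mul, ← mul_assoc x (c : G) z, hwv, hhom, map_mul]
      ring
    have h1 : w * conj ((η : H → ℂ) z') = 1 := by
      refine mul_right_cancel₀ hηne ?_
      rw [one_mul]
      exact hshift.symm
    rw [← hηz]
    calc w = w * ((η : H → ℂ) z' * conj ((η : H → ℂ) z')) := by rw [hunit, mul_one]
      _ = (η : H → ℂ) z' * (w * conj ((η : H → ℂ) z')) := by ring
      _ = _ := by rw [h1, mul_one]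
  set b₀' : {b : Set (IrrCharacter H) // IsPBlock M b} := ⟨b₀, hind.1⟩
  set θ₀ := θf b₀'
  set μ : G → ℂ := fun g => if h : g ∈ H then (θ₀ : H → ℂ) ⟨g, h⟩ else 0 with hμ
  have hμv : ∀ (z : G) (hz : z ∈ Subgroup.center G), μ z = (θ₀ : H → ℂ) ⟨z, D.center_le hz⟩ :=
    fun z hz => dif_pos _
  have hover : ∀ χ : IrrCharacter G, dB x b₀ χ ≠ 0 → Over (χ : G → ℂ) μ := fun χ h z hz g => by
    rw [hμv z hz]; exact L1 χ b₀' h z hz g
  have L2 : ∀ (χ : IrrCharacter G) (b : {b : Set (IrrCharacter H) // IsPBlock M b}),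
      Over (χ : G → ℂ) μ → dB x b.1 χ ≠ 0 → b.1 = b₀ := by
    intro χ b hχ hne
    have heq : θf b = θ₀ := by
      refine Subtype.ext (funext fun c => ?_)
      obtain ⟨i, z, hz, hi⟩ := D.exists_decomp c
      have hc : c = (⟨x, S.mem⟩ : H) ^ i * ⟨z, D.center_le hz⟩ :=
        Subtype.ext (by rw [Subgroup.coe_mul, Subgroup.coe_pow]; exact hi)
      have hx : ∀ η : IrrCharacter H, (η : H → ℂ) ⟨x, S.mem⟩ = (η : H → ℂ) 1 →
          (η : H → ℂ) ((⟨x, S.mem⟩ : H) ^ i) = 1 := fun η hη => by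
        clear hi hc
        induction i with
        | zero => rw [pow_zero, hlin]
        | succ n ih => rw [pow_succ, hhom, ih, hη, hlin, one_mul]
      have hzv : (θf b : H → ℂ) ⟨z, D.center_le hz⟩ = (θ₀ : H → ℂ) ⟨z, D.center_le hz⟩ := by
        have h1 := L1 χ b hne z hz 1
        have h2 := hχ z hz 1
        rw [h1, hμv z hz] at h2
        exact mul_right_cancel₀ (Chars.irr_apply_one_ne_zero χ.2) h2
      rw [hc, hhom, hhom, hx _ (hθf2 b), hx θ₀ (hθf2 b₀'), hzv]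
    have h1 : θ₀ ∈ b.1 := heq ▸ hθf1 b
    rw [block_eq_of_mem b.2 h1, block_eq_of_mem hind.1 (hθf1 b₀')]
  have hiter : ∀ (χ : IrrCharacter G) (r : ℕ),
      Over ((gal σ)^[r] χ : G → ℂ) μ → Over (χ : G → ℂ) μ := by
    intro χ r h
    have h1 := D.over_gal h (r * (p - 1) - r)
    rw [← iterate_add_apply, Nat.sub_add_cancel (Nat.le_mul_of_pos_right r
      (by have := hp.out.two_le; omega)), mul_comm, iterate_mul,
      iterate_fixed (gal_iterate_fix S.hm S.hexp S.hσ S.hk S.hKpow χ)] at h1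
    exact h1
  -- the values at `x`
  have hval : ∀ χ : IrrCharacter G, Over (χ : G → ℂ) μ → (χ : G → ℂ) x = dB x b₀ χ := by
    intro χ hχ
    have h1 : ¬ p ∣ orderOf (1 : H) := by rw [orderOf_one]; exact hp.out.not_dvd_one
    have h := sum_sec_eq S.hH S.hu S.hpM χ (1 : H)
    rw [Finset.sum_eq_single b₀ ?_ fun h => absurd (mem_blockFinset.2 hind.1) h,
      secPart_eq_dB S hind.1 (hθf1 b₀') (hθf2 b₀') χ h1, hlin, mul_one, OneMemClass.coe_one,
      mul_one] at h
    · exact h.symm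
    · intro b hb hne
      rw [secPart_eq_dB S (mem_blockFinset.1 hb) (hθf1 ⟨b, mem_blockFinset.1 hb⟩)
        (hθf2 ⟨b, mem_blockFinset.1 hb⟩) χ h1,
        show dB x b χ = 0 from by_contra fun h => hne (L2 χ ⟨b, mem_blockFinset.1 hb⟩ hχ h), zero_mul]
  have hvalK : ∀ χ : IrrCharacter G, Over (χ : G → ℂ) μ → ∀ j : ℕ,
      (χ : G → ℂ) (x ^ K ^ j) = dB x b₀ ((gal σ)^[j] χ) := fun χ hχ j => by
    rw [← S.gal_value χ j x]
    exact hval _ (D.over_gal hχ j)
  -- the block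
  obtain ⟨O⟩ := S.exists_shape hd hind (hθf1 b₀')
  have hmem_over : ∀ χ ∈ B, Over (χ : G → ℂ) μ := by
    intro χ hχ
    by_cases hY : χ ∈ O.Y
    · obtain ⟨j, -, hj⟩ : ∃ j ∈ Finset.range O.t, dB x b₀ ((gal σ)^[j] χ) ≠ 0 := by
        refine Finset.exists_ne_zero_of_sum_ne_zero ?_
        rw [O.dB_Y χ hY]
        rcases O.sign χ hχ with h | h <;> simp [h]
      exact hiter χ j (hover _ hj)
    · refine hover χ ?_
      rw [O.dB_X χ hχ hY]
      rcases O.sign χ hχ with h | h <;> simp [h]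
  have hns : ((blockFinset M H).filter fun b => IsInducedBlock M H b B) = {b₀} := by
    ext b
    simp only [Finset.mem_filter, Finset.mem_singleton, mem_blockFinset]
    refine ⟨fun ⟨hb, hbi⟩ => ?_, fun h => h ▸ ⟨hind.1, hind⟩⟩
    obtain ⟨χ, hχ, hne⟩ : ∃ χ ∈ bf B, dB x b χ * conj (dB x b χ) ≠ 0 := by
      refine Finset.exists_ne_zero_of_sum_ne_zero ?_
      rw [sum_dB S hbi hb, if_pos rfl]
      exact Nat.cast_ne_zero.2 hp.out.ne_zero
    exact L2 χ ⟨b, hb⟩ (hmem_over χ (mem_bf.1 hχ)) (left_ne_zero_of_mul hne)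
  have hc1 : ((blockFinset M H).filter fun b => IsInducedBlock M H b B).card *
      charDegree (θf b₀' : H → ℂ) = 1 := by
    have h1 : charDegree (θf b₀' : H → ℂ) = 1 := by
      have := hlin (θf b₀')
      rw [apply_one_eq_deg] at this
      exact_mod_cast this
    rw [hns, Finset.card_singleton, h1]
  have hcZ : ((((blockFinset M H).filter fun b => IsInducedBlock M H b B).card *
      charDegree (θf b₀' : H → ℂ) : ℕ) : ℤ) = 1 := by exact_mod_cast hc1
  -- the period is two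
  have ht : O.t = 2 := by
    have h2 : O.t ∣ 2 := by
      refine (O.period 2).1 fun χ => ?_
      have key : Over (χ : G → ℂ) μ → dB x b₀ ((gal σ)^[2] χ) = dB x b₀ χ := fun h => by
        obtain ⟨c, hc⟩ := isConj_iff.1 D.conj_K_sq
        rw [← hval _ (D.over_gal h 2), S.gal_value, ← hval _ h,
          ← Chars.isClassFunction_irr χ (x ^ K ^ 2) c, hc]
      by_cases h : Over (χ : G → ℂ) μ
      · exact key h
      · rw [show dB x b₀ χ = 0 from by_contra fun h0 => h (hover χ h0),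
          show dB x b₀ ((gal σ)^[2] χ) = 0 from by_contra fun h0 => h (hiter χ 2 (hover _ h0))]
    have := S.two_le_t hind O D.not_conj_K
    have := Nat.le_of_dvd (by norm_num) h2
    omega
  have hh : (p - 1) / O.t = e := by rw [ht]; have := D.he; omega
  obtain ⟨θ, hθY⟩ : O.Y.Nonempty := Set.nonempty_of_ncard_ne_zero (by
    rw [← Nat.card_coe_set_eq, O.card_Y]; exact O.t_pos.ne')
  have hθ2 : (gal σ)^[2] θ = θ := by
    have := O.fixed_t θ (O.Y_sub hθY)
    rwa [ht] at this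
  have hgY : gal σ θ ∈ O.Y := (O.orbit θ hθY _).1 ⟨1, rfl⟩
  have hYeq : ∀ ψ ∈ O.Y, ψ = θ ∨ ψ = gal σ θ := fun ψ hψ => by
    obtain ⟨r, rfl⟩ := (O.orbit θ hθY ψ).2 hψ
    rw [← (show IsPeriodicPt (gal σ) 2 θ from hθ2).iterate_mod_apply r]
    rcases Nat.mod_two_eq_zero_or_one r with h | h <;> rw [h]
    · exact Or.inl rfl
    · exact Or.inr rfl
  have hne : θ ≠ gal σ θ := fun h => by
    have hsub : O.Y ⊆ {θ} := fun ψ hψ => by
      rcases hYeq ψ hψ with h' | h'
      · exact h'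
      · exact h'.trans h.symm
    have := Set.ncard_le_ncard hsub
    rw [Set.ncard_singleton, ← Nat.card_coe_set_eq, O.card_Y, ht] at this
    omega
  set X : Finset (IrrCharacter G) := (B \ O.Y).toFinite.toFinset with hX
  have hXm : ∀ ψ, ψ ∈ X ↔ ψ ∈ B ∧ ψ ∉ O.Y := fun ψ => Set.Finite.mem_toFinset _
  have hbf : bf B = X ∪ {θ, gal σ θ} := by
    ext ψ
    rw [mem_bf, Finset.mem_union, hXm, Finset.mem_insert, Finset.mem_singleton]
    constructor
    · intro h
      by_cases hY : ψ ∈ O.Y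
      · exact Or.inr (hYeq ψ hY)
      · exact Or.inl ⟨h, hY⟩
    · rintro (h | rfl | rfl)
      · exact h.1
      · exact O.Y_sub hθY
      · exact O.Y_sub hgY
  have hXcard : X.card = e := by
    rw [← Set.ncard_eq_toFinset_card, ← Nat.card_coe_set_eq, O.card_X, hh]
  have hXval : ∀ ψ ∈ X, ∀ j : ℕ, (ψ : G → ℂ) (x ^ K ^ j) = (O.W ψ : ℂ) := fun ψ hψ j => by
    obtain ⟨h1, h2⟩ := (hXm ψ).1 hψ
    rw [hvalK ψ (hmem_over ψ h1) j, iterate_fixed (O.fixed ψ h1 h2), O.dB_X ψ h1 h2]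
  have hdisjX : Disjoint X {θ, gal σ θ} := by
    rw [Finset.disjoint_left]
    intro ψ hψ h
    simp only [Finset.mem_insert, Finset.mem_singleton] at h
    rcases h with rfl | rfl
    · exact ((hXm _).1 hψ).2 hθY
    · exact ((hXm _).1 hψ).2 hgY
  -- the orthogonality along the period
  have hper : ∀ r r' : ℕ, r < 2 → r' < 2 →
      ∑ ψ ∈ ({θ, gal σ θ} : Finset (IrrCharacter G)),
        (ψ : G → ℂ) (x ^ K ^ r) * conj ((ψ : G → ℂ) (x ^ K ^ r')) =
      (if r = r' then (p : ℂ) else 0) - e := by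
    intro r r' hr hr'
    have hmin : ∀ s, 0 < s → s < O.t → ∃ χ, dB x b₀ ((gal σ)^[s] χ) ≠ dB x b₀ χ := by
      intro s hs hst
      by_contra hno
      push Not at hno
      have := Nat.le_of_dvd hs ((O.period s).1 hno)
      omega
    have h := S.sum_period hind hmin (r := r) (r' := r') (by omega) (by omega)
    rw [hbf, Finset.sum_union hdisjX] at h
    have h1 : ∑ ψ ∈ X, dB x b₀ ((gal σ)^[r] ψ) * conj (dB x b₀ ((gal σ)^[r'] ψ)) = (e : ℂ) := by
      rw [Finset.sum_congr rfl (g := fun _ => (1 : ℂ)) fun ψ hψ => ?_, Finset.sum_const, hXcard,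
        nsmul_one]
      obtain ⟨h1, h2⟩ := (hXm ψ).1 hψ
      rw [iterate_fixed (O.fixed ψ h1 h2), iterate_fixed (O.fixed ψ h1 h2), O.dB_X ψ h1 h2]
      rcases O.sign ψ h1 with h | h <;> simp [h]
    rw [h1] at h
    rw [← h, add_sub_cancel_left]
    refine Finset.sum_congr rfl fun ψ hψ => ?_
    have hψB : ψ ∈ B := by rw [← mem_bf, hbf]; exact Finset.mem_union_right _ hψ
    rw [hvalK ψ (hmem_over ψ hψB), hvalK ψ (hmem_over ψ hψB)]
  refine ⟨μ, hmem_over ψ₀ hψB, ⟨{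
    X := X
    θ := θ
    ε := O.W
    W := O.W θ
    gal_θ := hθ2
    ne_gal := hne
    θ_notMem := fun h => ((hXm _).1 h).2 hθY
    gal_notMem := fun h => ((hXm _).1 h).2 hgY
    gal_X := fun ψ h => O.fixed ψ ((hXm _).1 h).1 ((hXm _).1 h).2
    card_X := hXcard
    overX := fun ψ h => hmem_over ψ ((hXm _).1 h).1
    overθ := hmem_over θ (O.Y_sub hθY)
    overθ' := hmem_over _ (O.Y_sub hgY)
    sign := fun ψ h => O.sign ψ ((hXm _).1 h).1
    sign_W := O.sign θ (O.Y_sub hθY)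
    X_value := hXval
    Y_value := fun j => ?_
    Y_norm := ?_
    Y_cross := ?_
    vanish := fun ψ hψ hX' h1 h2 j => ?_
    X_deg := fun ψ h => ?_
    θ_deg := ?_
    gal_reg := fun g hg => S.gal_reg θ 1 hg
    relation := fun g hg => ?_ }⟩⟩
  · rw [hvalK θ (hmem_over θ (O.Y_sub hθY)) j, hvalK _ (hmem_over _ (O.Y_sub hgY)) j]
    have hj : (gal σ)^[j] θ ∈ O.Y := (O.orbit θ hθY _).1 ⟨j, rfl⟩
    have h := O.dB_Y _ hj
    rw [ht, Finset.sum_range_succ, Finset.sum_range_one, iterate_zero_apply, iterate_one,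
      O.sign_Y _ hj θ hθY] at h
    rw [← h, ← iterate_succ_apply, iterate_succ_apply']
  · have h := hper 0 0 (by norm_num) (by norm_num)
    rw [Finset.sum_pair hne, pow_zero, pow_one, if_pos rfl] at h
    exact h
  · have h := hper 0 1 (by norm_num) (by norm_num)
    rw [Finset.sum_pair hne, pow_zero, pow_one, pow_one, if_neg zero_ne_one, zero_sub] at h
    exact h
  · rw [hvalK ψ hψ j]
    refine dB_eq_zero S hind fun hB2 => ?_
    have hψB2 := (S.iterate_mem_block hB j).1 hB2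
    by_cases hY : ψ ∈ O.Y
    · exact (hYeq ψ hY).elim h1 h2
    · exact hX' ((hXm ψ).2 ⟨hψB2, hY⟩)
  · obtain ⟨h1, h2⟩ := (hXm ψ).1 h
    have h3 := O.degree_X ψ h1 h2
    rw [hcZ, one_mul] at h3
    exact Int.modEq_iff_dvd.1 h3.symm
  · have h3 := O.degree_Y θ hθY
    rw [hcZ, hh, mul_one] at h3
    have h4 := Int.modEq_iff_dvd.1 h3.symm
    rwa [sub_neg_eq_add] at h4
  · have h := O.relation g hg θ hθY
    rwa [finsum_mem_eq_finite_toFinset_sum _ (Set.toFinite _)] at h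

end Half

end Cfsg.Agent.Blocks.HalfDegree
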