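import Cfsg.Agent.Blocks.HalfDegree.Block

/-!
Sums over the elements of order divisible by `p`.
-/

set_option autoImplicit false
set_option linter.unusedSectionVars false
set_option linter.style.haveILetI false

namespace Cfsg.Agent.Blocks.HalfDegree

open Cfsg Cfsg.Agent Cfsg.Agent.Blocks Cfsg.Agent.BlockChar Cfsg.Agent.Chars2.Cyc Function
  Screen.BrauerP
open scoped ComplexConjugate

universe u

variable {G : Type u} [Group G] [Fintype G]

open scoped Classical in
/-- The elements of order divisible by `p`. -/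
noncomputable def sings (p : ℕ) (G : Type u) [Group G] [Fintype G] : Finset G :=
  Finset.univ.filter fun g => p ∣ orderOf g

theorem mem_sings {p : ℕ} {g : G} : g ∈ sings p G ↔ p ∣ orderOf g := by
  classical simp [sings]

variable {p m K e : ℕ} [hp : Fact p.Prime] {M : Ideal AlgInt} [M.IsMaximal] {x : G}
  {σ : ℂ ≃+* ℂ} {H : Subgroup G} [Fintype H] {φ : IrrCharacter G}

theorem sum_eq_sings_add_regs (f : G → ℂ) :
    ∑ g, f g = ∑ g ∈ sings p G, f g + ∑ g ∈ regs p G, f g := by
  classical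
  rw [show regs p G = Finset.univ.filter (fun g => ¬ p ∣ orderOf g) from
      Finset.ext fun g => by simp [mem_regs], sings,
    Finset.sum_filter_add_sum_filter_not]

namespace Half

theorem zpowers_pow_eq (D : Half M p m K e x σ H φ) {i : ℕ} (hi : ¬ p ∣ i) :
    Subgroup.zpowers (x ^ i) = Subgroup.zpowers x := by
  refine Subgroup.eq_of_le_of_card_ge
    (Subgroup.zpowers_le.2 (Subgroup.pow_mem _ (Subgroup.mem_zpowers x) _)) ?_
  rw [Nat.card_zpowers, Nat.card_zpowers, orderOf_pow, D.S.hx,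
    (hp.out.coprime_iff_not_dvd.2 hi).gcd_eq_one, Nat.div_one]

theorem pow_mul_inj (D : Half M p m K e x σ H φ) {a b : G} {z w : G} (ha : a ^ p = 1)
    (hb : b ^ p = 1) (hz : z ∈ Subgroup.center G) (hw : w ∈ Subgroup.center G)
    (h : a * z = b * w) : a = b ∧ z = w := by
  have hz' := Subgroup.mem_center_iff.1 hz
  have hw' := Subgroup.mem_center_iff.1 hw
  have h1 : z ^ p = w ^ p := by
    have h2 : (a * z) ^ p = (b * w) ^ p := by rw [h]
    rw [Commute.mul_pow (hz' a), Commute.mul_pow (hw' b), ha, hb, one_mul, one_mul] at h2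
    exact h2
  have hcomm : Commute z w⁻¹ := (hz' w⁻¹).symm
  have hq : (z * w⁻¹) ^ p = 1 := by rw [hcomm.mul_pow, inv_pow, h1, mul_inv_cancel]
  have hzw : z = w := by
    rw [← mul_inv_eq_one]
    by_contra hne
    have h3 := orderOf_eq_prime hq hne
    exact D.not_dvd_center (Subgroup.mul_mem _ hz (Subgroup.inv_mem _ hw)) (h3.symm ▸ dvd_rfl)
  subst hzw
  exact ⟨mul_right_cancel h, rfl⟩

theorem dvd_orderOf_pow_mul (D : Half M p m K e x σ H φ) {i : ℕ} (hi : ¬ p ∣ i) {z : G}
    (hz : z ∈ Subgroup.center G) : p ∣ orderOf (x ^ i * z) := by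
  rw [Commute.orderOf_mul_eq_mul_orderOf_of_coprime (Subgroup.mem_center_iff.1 hz (x ^ i))]
  · rw [← Nat.card_zpowers (x ^ i), D.zpowers_pow_eq hi, Nat.card_zpowers, D.S.hx]
    exact dvd_mul_right _ _
  · rw [← Nat.card_zpowers (x ^ i), D.zpowers_pow_eq hi, Nat.card_zpowers, D.S.hx]
    exact hp.out.coprime_iff_not_dvd.2 (D.not_dvd_center hz)

open scoped Classical in
/-- A sum over the singular elements of a class function insensitive to the centre. -/
theorem sum_sings (D : Half M p m K e x σ H φ) (h : G → ℂ)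
    (hconj : ∀ a g : G, h (a * g * a⁻¹) = h g)
    (hcen : ∀ z ∈ Subgroup.center G, ∀ g : G, h (g * z) = h g) :
    (Nat.card (Subgroup.normalizer ((Subgroup.zpowers x : Subgroup G) : Set G)) : ℂ) *
        ∑ g ∈ sings p G, h g =
      (Nat.card G : ℂ) * (Nat.card (Subgroup.center G) : ℂ) * ∑ i ∈ Finset.Ico 1 p, h (x ^ i) := by
  set NP := Subgroup.normalizer ((Subgroup.zpowers x : Subgroup G) : Set G) with hNP
  set Zs : Finset G := Finset.univ.filter fun g => g ∈ Subgroup.center G with hZs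
  set T := (Finset.univ : Finset G) ×ˢ (Finset.Ico 1 p ×ˢ Zs) with hT
  set F : G × ℕ × G → G := fun t => t.1 * (x ^ t.2.1 * t.2.2) * t.1⁻¹ with hF
  have hmemZ : ∀ {z : G}, z ∈ Zs ↔ z ∈ Subgroup.center G := fun {z} => by simp [hZs]
  have hnd : ∀ {i : ℕ}, i ∈ Finset.Ico 1 p → ¬ p ∣ i := fun {i} hi h => by
    have := Nat.le_of_dvd (Finset.mem_Ico.1 hi).1 h
    have := (Finset.mem_Ico.1 hi).2
    omega
  have hpowp : ∀ i : ℕ, (x ^ i) ^ p = 1 := fun i => by
    rw [← pow_mul, mul_comm, pow_mul, ← D.S.hx, pow_orderOf_eq_one, one_pow]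
  have hmaps : ∀ t ∈ T, F t ∈ sings p G := by
    intro t ht
    rw [hT, Finset.mem_product, Finset.mem_product] at ht
    rw [mem_sings]
    show p ∣ orderOf ((MulAut.conj t.1) (x ^ t.2.1 * t.2.2))
    rw [MulEquiv.orderOf_eq]
    exact D.dvd_orderOf_pow_mul (hnd ht.2.1) (hmemZ.1 ht.2.2)
  have hfib : ∀ g ∈ sings p G, (T.filter fun t => F t = g).card = Nat.card NP := by
    intro g hg
    obtain ⟨b, j, z₀, hz₀, rfl⟩ := D.exists_form (mem_sings.1 hg)
    rw [Nat.card_eq_fintype_card, Fintype.card_subtype]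
    refine Finset.card_bij (fun t _ => b⁻¹ * t.1) (fun t ht => ?_) (fun t ht t' ht' h => ?_)
      (fun c hc => ?_)
    · obtain ⟨htT, hte⟩ := Finset.mem_filter.1 ht
      rw [hT, Finset.mem_product, Finset.mem_product] at htT
      obtain ⟨-, hi, hz⟩ := htT
      set c := b⁻¹ * t.1 with hc
      have h1 : c * x ^ t.2.1 * c⁻¹ * t.2.2 = x ^ K ^ j * z₀ := by
        calc c * x ^ t.2.1 * c⁻¹ * t.2.2 = c * x ^ t.2.1 * (c⁻¹ * t.2.2) := by group
          _ = c * x ^ t.2.1 * (t.2.2 * c⁻¹) := by rw [Subgroup.mem_center_iff.1 (hmemZ.1 hz) c⁻¹]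
          _ = b⁻¹ * F t * b := by rw [hF, hc]; group
          _ = _ := by rw [hte]; group
      have h2 := (D.pow_mul_inj (by rw [conj_pow, hpowp, mul_one, mul_inv_cancel]) (hpowp _)
        (hmemZ.1 hz) hz₀ h1).1
      refine Finset.mem_filter.2 ⟨Finset.mem_univ _, mem_normalizer_of_conjS_eq ?_⟩
      show (Subgroup.zpowers x).map (MulAut.conj c).toMonoidHom = _
      conv_lhs => rw [← D.zpowers_pow_eq (hnd hi), MonoidHom.map_zpowers]
      show Subgroup.zpowers (c * x ^ t.2.1 * c⁻¹) = _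
      rw [h2, D.S.zpowers_pow]
    · obtain ⟨htT, hte⟩ := Finset.mem_filter.1 ht
      obtain ⟨htT', hte'⟩ := Finset.mem_filter.1 ht'
      rw [hT, Finset.mem_product, Finset.mem_product] at htT htT'
      have ha : t.1 = t'.1 := mul_left_cancel h
      have he := hte.trans hte'.symm
      simp only [hF, ha, mul_left_inj, mul_right_inj] at he
      obtain ⟨h1, h2⟩ := D.pow_mul_inj (hpowp _) (hpowp _) (hmemZ.1 htT.2.2) (hmemZ.1 htT'.2.2) he
      refine Prod.ext ha (Prod.ext ?_ h2)
      rw [pow_eq_pow_iff_modEq, D.S.hx] at h1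
      exact h1.eq_of_lt_of_lt (Finset.mem_Ico.1 htT.2.1).2 (Finset.mem_Ico.1 htT'.2.1).2
    · have hc' : c ∈ NP := (Finset.mem_filter.1 hc).2
      have hmem : c⁻¹ * x ^ K ^ j * c ∈ Subgroup.zpowers x :=
        (Subgroup.mem_normalizer_iff'.1 hc' _).2 (by
          rw [show c * (c⁻¹ * x ^ K ^ j) = x ^ K ^ j by group]
          exact Subgroup.pow_mem _ (Subgroup.mem_zpowers x) _)
      rw [mem_zpowers_iff_mem_range_orderOf, D.S.hx] at hmem
      obtain ⟨i, hi, hie⟩ := Finset.mem_image.1 hmem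
      have hi' : i ∈ Finset.Ico 1 p := by
        refine Finset.mem_Ico.2 ⟨Nat.one_le_iff_ne_zero.2 fun h0 => D.S.pow_ne_one j ?_,
          Finset.mem_range.1 hi⟩
        simp only [h0, pow_zero] at hie
        have := congrArg (fun y => c * y * c⁻¹) hie
        simp only [mul_one, mul_inv_cancel] at this
        rw [this]
        group
      refine ⟨(b * c, i, z₀), Finset.mem_filter.2 ⟨?_, ?_⟩, by group⟩
      · rw [hT, Finset.mem_product, Finset.mem_product]
        exact ⟨Finset.mem_univ _, hi', hmemZ.2 hz₀⟩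
      · show b * c * (x ^ i * z₀) * (b * c)⁻¹ = _
        rw [show x ^ i = c⁻¹ * x ^ K ^ j * c from hie]
        calc b * c * (c⁻¹ * x ^ K ^ j * c * z₀) * (b * c)⁻¹
            = b * x ^ K ^ j * (c * z₀) * c⁻¹ * b⁻¹ := by group
          _ = b * x ^ K ^ j * (z₀ * c) * c⁻¹ * b⁻¹ := by rw [Subgroup.mem_center_iff.1 hz₀ c]
          _ = _ := by group
  have hsum := Finset.sum_fiberwise_of_maps_to hmaps (fun t => h (F t))
  rw [Finset.sum_congr rfl (g := fun g => (Nat.card NP : ℂ) * h g) fun g hg => by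
    rw [Finset.sum_congr rfl (g := fun _ => h g) fun t ht => by rw [(Finset.mem_filter.1 ht).2],
      Finset.sum_const, hfib g hg, nsmul_eq_mul], ← Finset.mul_sum] at hsum
  rw [hsum, hT, Finset.sum_product]
  simp only [Finset.sum_product, hF, hconj]
  rw [Finset.sum_const, Finset.card_univ, ← Nat.card_eq_fintype_card, nsmul_eq_mul, mul_assoc]
  congr 1
  rw [Finset.mul_sum]
  refine Finset.sum_congr rfl fun i _ => ?_
  rw [Finset.sum_congr rfl fun z hz => hcen z (hmemZ.1 hz) _, Finset.sum_const, nsmul_eq_mul,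
    Nat.card_eq_fintype_card, Fintype.card_subtype]

/-- The sum over the singular elements, given their number. -/
theorem sum_sings_eq (D : Half M p m K e x σ H φ)
    (hcard : p * (sings p G).card = 2 * Nat.card G) :
    Nat.card (Subgroup.normalizer ((Subgroup.zpowers x : Subgroup G) : Set G)) =
        p * e * Nat.card (Subgroup.center G) ∧
      ∀ h : G → ℂ, (∀ a g : G, h (a * g * a⁻¹) = h g) →
        (∀ z ∈ Subgroup.center G, ∀ g : G, h (g * z) = h g) →
        (p : ℂ) * (e : ℂ) * ∑ g ∈ sings p G, h g =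
          (Nat.card G : ℂ) * ∑ i ∈ Finset.Ico 1 p, h (x ^ i) := by
  set N := Nat.card (Subgroup.normalizer ((Subgroup.zpowers x : Subgroup G) : Set G))
  set Z := Nat.card (Subgroup.center G)
  have h1 := D.sum_sings (fun _ => 1) (fun _ _ => rfl) (fun _ _ _ => rfl)
  simp only [Finset.sum_const, Nat.card_Ico, nsmul_eq_mul, mul_one] at h1
  have h2 : N * (sings p G).card = Nat.card G * Z * (p - 1) := by exact_mod_cast h1
  have hN : N = p * e * Z := by
    have h3 : N * (2 * Nat.card G) = 2 * Nat.card G * (p * e * Z) := by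
      rw [← hcard, mul_left_comm, h2, hcard, show p - 1 = 2 * e by have := D.he; omega]
      ring
    refine Nat.eq_of_mul_eq_mul_left (show 0 < 2 * Nat.card G by have := Nat.card_pos (α := G); omega) ?_
    rw [mul_comm, h3]
  refine ⟨hN, fun h hc hz => ?_⟩
  have h4 := D.sum_sings h hc hz
  change (N : ℂ) * _ = _ at h4
  rw [hN, Nat.cast_mul, Nat.cast_mul] at h4
  refine mul_right_cancel₀ (show (Z : ℂ) ≠ 0 from Nat.cast_ne_zero.2 Nat.card_pos.ne') ?_
  linear_combination h4

end Half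

end Cfsg.Agent.Blocks.HalfDegree
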