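import Cfsg.Agent.Blocks.HalfDegree.Count
import Cfsg.Agent.Screen.BrauerP.Degrees

/-!
The degrees in the blocks over the trivial and over the faithful character of the centre.
-/

set_option autoImplicit false
set_option linter.unusedSectionVars false
set_option linter.style.haveILetI false

namespace Cfsg.Agent.Blocks.HalfDegree

open Cfsg Cfsg.Agent Cfsg.Agent.Blocks Cfsg.Agent.BlockChar Cfsg.Agent.Chars2.Cyc Function
  Screen.BrauerP
open scoped ComplexConjugate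

universe u

variable {G : Type u} [Group G] [Fintype G] {p m K e : ℕ} [hp : Fact p.Prime] {M : Ideal AlgInt}
  [M.IsMaximal] {x : G} {σ : ℂ ≃+* ℂ} {H : Subgroup G} [Fintype H] {φ : IrrCharacter G}
  {μ μ₁ : G → ℂ}

namespace Blk

theorem mu_norm (B : Blk p K e x σ μ) {z : G} (hz : z ∈ Subgroup.center G) : ‖μ z‖ = 1 := by
  obtain ⟨w, hw, hwv⟩ := exists_scalar B.θ.2 hz
  have h := B.overθ z hz 1
  rw [hwv 1] at h
  rw [← mul_right_cancel₀ (Chars.irr_apply_one_ne_zero B.θ.2) h, hw]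

theorem sing_value (B : Blk p K e x σ μ) (D : Half M p m K e x σ H φ) {g : G}
    (hg : p ∣ orderOf g) : ∃ z ∈ Subgroup.center G,
      (∀ ψ ∈ B.X, (ψ : G → ℂ) g = μ z * (B.ε ψ : ℂ)) ∧
      (B.θ : G → ℂ) g + (gal σ B.θ : G → ℂ) g = μ z * (B.W : ℂ) := by
  obtain ⟨a, j, z, hz, rfl⟩ := D.exists_form hg
  refine ⟨z, hz, fun ψ hψ => ?_, ?_⟩
  · rw [Chars.isClassFunction_irr ψ _ a, B.overX ψ hψ z hz, B.X_value ψ hψ j]
  · rw [Chars.isClassFunction_irr B.θ _ a, Chars.isClassFunction_irr (gal σ B.θ) _ a,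
      B.overθ z hz, B.overθ' z hz, ← mul_add, B.Y_value j]

/-- The difference of two class functions equal on the regular elements. -/
theorem pair (B : Blk p K e x σ μ) (D : Half M p m K e x σ H φ) (F₀ F₁ : G → ℂ)
    (heq : ∀ g : G, ¬ p ∣ orderOf g → F₀ g = F₁ g) :
    ∀ ψ ∈ B.X, (B.ε ψ : ℂ) * (classInner F₀ (ψ : G → ℂ) - classInner F₁ (ψ : G → ℂ)) =
      (B.W : ℂ) * ((classInner F₀ (B.θ : G → ℂ) - classInner F₁ (B.θ : G → ℂ)) +
        (classInner F₀ (gal σ B.θ : G → ℂ) - classInner F₁ (gal σ B.θ : G → ℂ))) := by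
  intro ψ hψ
  simp only [Chars.classInner_def]
  rw [← sub_eq_zero]
  have h : ∑ g : G, (F₀ g - F₁ g) * ((B.ε ψ : ℂ) * conj ((ψ : G → ℂ) g) -
      (B.W : ℂ) * (conj ((B.θ : G → ℂ) g) + conj ((gal σ B.θ : G → ℂ) g))) = 0 := by
    refine Finset.sum_eq_zero fun g _ => ?_
    by_cases hg : p ∣ orderOf g
    · obtain ⟨z, -, hX, hY⟩ := B.sing_value D hg
      rw [← map_add, hX ψ hψ, hY, map_mul, map_mul, map_intCast, map_intCast]
      have hs : (B.ε ψ : ℂ) * B.ε ψ = 1 := by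
        rcases B.sign ψ hψ with h | h <;> simp [h]
      have hW : (B.W : ℂ) * B.W = 1 := by rcases B.sign_W with h | h <;> simp [h]
      linear_combination (F₀ g - F₁ g) * conj (μ z) * hs - (F₀ g - F₁ g) * conj (μ z) * hW
    · rw [heq g hg, sub_self, zero_mul]
  refine Eq.trans ?_ (mul_eq_zero_of_right ((Nat.card G : ℂ)⁻¹) h)
  simp only [Finset.mul_sum, ← Finset.sum_sub_distrib, ← Finset.sum_add_distrib]
  exact Finset.sum_congr rfl fun g _ => by ring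

theorem eq_or_vanish (B : Blk p K e x σ μ) (ψ : IrrCharacter G) (hψ : Over (ψ : G → ℂ) μ) :
    ψ ∈ B.X ∨ ψ = B.θ ∨ ψ = gal σ B.θ ∨ (ψ : G → ℂ) x = 0 := by
  by_cases h1 : ψ ∈ B.X
  · exact Or.inl h1
  by_cases h2 : ψ = B.θ
  · exact Or.inr (Or.inl h2)
  by_cases h3 : ψ = gal σ B.θ
  · exact Or.inr (Or.inr (Or.inl h3))
  refine Or.inr (Or.inr (Or.inr ?_))
  have := B.vanish ψ hψ h1 h2 h3 0
  rwa [pow_zero, pow_one] at this

theorem one_mem (B : Blk p K e x σ μ) (h : Over ((oneChar G : IrrCharacter G) : G → ℂ) μ) :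
    oneChar G ∈ B.X ∧ B.ε (oneChar G) = 1 := by
  have hfix : gal σ (oneChar G) = oneChar G :=
    Subtype.ext (funext fun g => by rw [gal_apply]; exact map_one σ)
  have hmem : oneChar G ∈ B.X := by
    rcases B.eq_or_vanish _ h with h1 | h1 | h1 | h1
    · exact h1
    · exact absurd (by rw [← h1, hfix] : B.θ = gal σ B.θ) B.ne_gal
    · refine absurd ?_ B.ne_gal
      conv_lhs => rw [← B.gal_θ, ← h1, hfix]
      exact h1
    · exact absurd h1 one_ne_zero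
  refine ⟨hmem, ?_⟩
  have h1 := B.X_value _ hmem 0
  have h1' : (1 : ℂ) = (B.ε (oneChar G) : ℂ) := h1
  exact_mod_cast h1'.symm

theorem mu_one (B : Blk p K e x σ μ) (h : Over ((oneChar G : IrrCharacter G) : G → ℂ) μ) {z : G}
    (hz : z ∈ Subgroup.center G) : μ z = 1 := by
  have := h z hz 1
  simp only [coe_oneChar] at this
  linear_combination -this

/-- The block containing `φ`. -/
theorem phi_mem (B : Blk p K e x σ μ) (D : Half M p m K e x σ H φ) (h : Over (φ : G → ℂ) μ) :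
    ((B.θ = φ ∧ gal σ B.θ = gal σ φ) ∨ (B.θ = gal σ φ ∧ gal σ B.θ = φ)) ∧ B.W = -1 := by
  have hnd : ∀ j : ℕ, ¬ p ∣ K ^ j := fun j hd => by
    rw [← ZMod.natCast_eq_zero_iff, Nat.cast_pow] at hd
    exact pow_ne_zero j D.S.K_ne_zero hd
  have hfix : gal σ φ ≠ φ := fun hf => by
    refine D.S.false_of_fixed_half (by rw [D.hdeg, D.he]) D.hns fun j => ?_
    have h1 := D.S.gal_value φ 1 (x ^ j)
    rw [iterate_one, hf, pow_one, ← pow_mul] at h1
    exact h1.symm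
  have hmem : φ = B.θ ∨ φ = gal σ B.θ := by
    by_cases h1 : φ ∈ B.X
    · exact absurd (B.gal_X φ h1) hfix
    by_contra hno
    push Not at hno
    have h2 : ∀ j : ℕ, (φ : G → ℂ) (x ^ K ^ j) = 0 := fun j => B.vanish φ h h1 hno.1 hno.2 j
    have h3 := D.add_gal_value (j := 1) hp.out.not_dvd_one
    have h4 := D.S.gal_value φ 1 x
    rw [iterate_one] at h4
    have h5 := h2 0
    rw [pow_zero] at h5
    rw [pow_one] at h3 h5
    rw [h4, h2 1, h5, add_zero] at h3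
    norm_num at h3
  have hpair : (B.θ = φ ∧ gal σ B.θ = gal σ φ) ∨ (B.θ = gal σ φ ∧ gal σ B.θ = φ) := by
    rcases hmem with h1 | h1
    · exact Or.inl ⟨h1.symm, by rw [h1]⟩
    · exact Or.inr ⟨by rw [h1, B.gal_θ], h1.symm⟩
  refine ⟨hpair, ?_⟩
  have h1 := B.Y_value 0
  have h3 := D.add_gal_value (j := 1) hp.out.not_dvd_one
  simp only [pow_zero, pow_one] at h1 h3
  rcases hpair with ⟨e1, e2⟩ | ⟨e1, e2⟩
  · rw [e2, e1, h3] at h1
    exact_mod_cast h1.symm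
  · rw [e2, e1, add_comm, h3] at h1
    exact_mod_cast h1.symm

/-- The number of singular elements, from the block of the trivial character. -/
theorem card_sings (B : Blk p K e x σ μ) (D : Half M p m K e x σ H φ)
    (h : Over ((oneChar G : IrrCharacter G) : G → ℂ) μ) :
    p * (sings p G).card = 2 * Nat.card G := by
  classical
  obtain ⟨h1X, hε1⟩ := B.one_mem h
  have hsum : ∀ ψ : IrrCharacter G,
      ∑ g, (ψ : G → ℂ) g = if ψ = oneChar G then (Nat.card G : ℂ) else 0 := fun ψ => by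
    have h1 := Chars.classInner_irrCharacter ψ (oneChar G)
    rw [Chars.classInner_def] at h1
    simp only [coe_oneChar, map_one, mul_one] at h1
    have h2 := congrArg ((Nat.card G : ℂ) * ·) h1
    simp only [← mul_assoc, mul_inv_cancel₀ Chars.card_ne_zero, one_mul] at h2
    rw [h2]
    split_ifs <;> simp
  set F : G → ℂ := fun g => 2 * ∑ ψ ∈ B.X, (B.ε ψ : ℂ) * (ψ : G → ℂ) g +
    (B.W : ℂ) * ((B.θ : G → ℂ) g + (gal σ B.θ : G → ℂ) g) with hF
  have hne1 : B.θ ≠ oneChar G := fun e1 => B.θ_notMem (e1 ▸ h1X)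
  have hne2 : gal σ B.θ ≠ oneChar G := fun e1 => B.gal_notMem (e1 ▸ h1X)
  have htot : ∑ g, F g = 2 * (Nat.card G : ℂ) := by
    simp only [hF, Finset.sum_add_distrib, ← Finset.mul_sum]
    rw [hsum B.θ, hsum (gal σ B.θ), if_neg hne1, if_neg hne2, Finset.sum_comm]
    simp only [← Finset.mul_sum, hsum, mul_ite, mul_zero, Finset.sum_ite_eq', if_pos h1X, hε1]
    push_cast
    ring
  have hW : (B.W : ℂ) * B.W = 1 := by rcases B.sign_W with h | h <;> simp [h]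
  have hS : ∀ g ∈ sings p G, F g = (p : ℂ) := fun g hg => by
    obtain ⟨z, hz, hX, hY⟩ := B.sing_value D (mem_sings.1 hg)
    simp only [hF]
    rw [hY, Finset.sum_congr rfl (g := fun _ => (1 : ℂ)) fun ψ hψ => ?_, Finset.sum_const,
      B.card_X, nsmul_one, B.mu_one h hz, ← D.e_cast]
    · linear_combination hW
    · rw [hX ψ hψ, B.mu_one h hz, one_mul]
      rcases B.sign ψ hψ with h' | h' <;> simp [h']
  have hR : ∀ g ∈ regs p G, F g = 0 := fun g hg => by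
    simp only [hF]
    rw [B.gal_reg g (mem_regs.1 hg)]
    linear_combination 2 * B.relation g (mem_regs.1 hg)
  rw [sum_eq_sings_add_regs (p := p) F, Finset.sum_congr rfl hS, Finset.sum_eq_zero hR, add_zero,
    Finset.sum_const, nsmul_eq_mul, mul_comm] at htot
  exact_mod_cast htot

end Blk

/-- What is used of the block over the trivial character. -/
structure Princ (p K e : ℕ) (x : G) (σ : ℂ ≃+* ℂ) (φ : IrrCharacter G) (μ : G → ℂ)
    (B : Blk p K e x σ μ) : Prop where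
  degs : ∀ ψ ∈ B.X, ψ ≠ oneChar G → (charDegree (ψ : G → ℂ) : ℤ) = p + B.ε ψ
  degθ : (B.W = 1 ∧ charDegree (B.θ : G → ℂ) = e + 1) ∨
    (B.W = -1 ∧ charDegree (B.θ : G → ℂ) = e)
  sums : ∀ g : G, ¬ p ∣ orderOf g →
    (∑ ψ ∈ B.X, (ψ : G → ℂ) g) + (B.θ : G → ℂ) g =
      2 * ((φ : G → ℂ) g * conj ((φ : G → ℂ) g))
  exists_a : ∃ θa θb : IrrCharacter G, (θa = B.θ ∧ θb = gal σ B.θ ∨ θa = gal σ B.θ ∧ θb = B.θ) ∧
    (∀ g : G, (φ : G → ℂ) g * conj ((φ : G → ℂ) g) + (φ : G → ℂ) g * conj ((gal σ φ : G → ℂ) g) =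
      (∑ ψ ∈ B.X, (ψ : G → ℂ) g) + (θa : G → ℂ) g) ∧
    classInner (fun g => (φ : G → ℂ) g * conj ((φ : G → ℂ) g)) (θa : G → ℂ) +
      classInner (fun g => (φ : G → ℂ) g * conj ((gal σ φ : G → ℂ) g)) (θa : G → ℂ) = 1 ∧
    classInner (fun g => (φ : G → ℂ) g * conj ((φ : G → ℂ) g)) (θb : G → ℂ) +
      classInner (fun g => (φ : G → ℂ) g * conj ((gal σ φ : G → ℂ) g)) (θb : G → ℂ) = 0

theorem mult_ge (ε : ℤ) (hε : ε = 1 ∨ ε = -1) (k : ℤ) (hk : k = 1 ∨ k = -1) (a b : ℕ)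
    (h : (ε : ℂ) * ((a : ℂ) - b) = (k : ℂ)) : 1 ≤ a + b := by
  by_contra hlt
  have ha : a = 0 := by omega
  have hb : b = 0 := by omega
  rw [ha, hb, Nat.cast_zero, sub_self, mul_zero] at h
  rcases hk with h' | h' <;> rw [h'] at h <;> simp at h

/-- Weighted sums of signs. -/
theorem abs_sum_le (X : Finset (IrrCharacter G)) (ε k : IrrCharacter G → ℤ)
    (hs : ∀ ψ ∈ X, ε ψ = 1 ∨ ε ψ = -1) (hk : ∀ ψ ∈ X, 1 ≤ k ψ) :
    0 ≤ ∑ ψ ∈ X, (k ψ - 1) ∧
      ∑ ψ ∈ X, ε ψ * (k ψ - 1) ≤ ∑ ψ ∈ X, (k ψ - 1) ∧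
      -(∑ ψ ∈ X, (k ψ - 1)) ≤ ∑ ψ ∈ X, ε ψ * (k ψ - 1) := by
  refine ⟨Finset.sum_nonneg fun ψ h => by linarith [hk ψ h],
    Finset.sum_le_sum fun ψ h => ?_, ?_⟩
  · rcases hs ψ h with e | e <;> rw [e] <;> linarith [hk ψ h]
  · rw [← Finset.sum_neg_distrib]
    refine Finset.sum_le_sum fun ψ h => ?_
    rcases hs ψ h with e | e <;> rw [e] <;> linarith [hk ψ h]

namespace Half

theorem isCharacter_prod (φ ψ : IrrCharacter G) :
    IsCharacter G fun g => (φ : G → ℂ) g * conj ((ψ : G → ℂ) g) :=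
  Chars.isCharacter_mul (Chars.irr_isCharacter φ) (Chars.isCharacter_star (Chars.irr_isCharacter ψ))

open scoped Classical in
theorem princ (D : Half M p m K e x σ H φ) (B : Blk p K e x σ μ)
    (h : Over ((oneChar G : IrrCharacter G) : G → ℂ) μ) : Princ p K e x σ φ μ B := by
  obtain ⟨h1X, hε1⟩ := B.one_mem h
  have h1deg : charDegree ((oneChar G : IrrCharacter G) : G → ℂ) = 1 := by
    simp [coe_oneChar, charDegree]
  have hreg1 : ¬ p ∣ orderOf (1 : G) := by rw [orderOf_one]; exact hp.out.not_dvd_one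
  set F₀ : G → ℂ := fun g => (φ : G → ℂ) g * conj ((φ : G → ℂ) g) with hF₀
  set F₁ : G → ℂ := fun g => (φ : G → ℂ) g * conj ((gal σ φ : G → ℂ) g) with hF₁
  have heq : ∀ g : G, ¬ p ∣ orderOf g → F₀ g = F₁ g := fun g hg => by
    simp only [hF₀, hF₁]
    rw [show (gal σ φ : G → ℂ) g = (φ : G → ℂ) g from D.S.gal_reg φ 1 hg]
  choose m₀ hm₀ using fun ψ : IrrCharacter G =>
    Chars.exists_classInner_eq_nat (isCharacter_prod φ φ) (Chars.irr_isCharacter ψ)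
  choose m₁ hm₁ using fun ψ : IrrCharacter G =>
    Chars.exists_classInner_eq_nat (isCharacter_prod φ (gal σ φ)) (Chars.irr_isCharacter ψ)
  have hgne : φ ≠ gal σ φ := fun hf => by
    refine D.S.false_of_fixed_half (by rw [D.hdeg, D.he]) D.hns fun j => ?_
    have h1 := D.S.gal_value φ 1 (x ^ j)
    rw [iterate_one, ← hf, pow_one, ← pow_mul] at h1
    exact h1.symm
  have hone0 : m₀ (oneChar G) = 1 := by
    have h1 := hm₀ (oneChar G)
    have h2 : classInner (fun g => (φ : G → ℂ) g * conj ((φ : G → ℂ) g))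
        ((oneChar G : IrrCharacter G) : G → ℂ) = classInner (φ : G → ℂ) (φ : G → ℂ) := by
      simp [Chars.classInner_def, coe_oneChar]
    rw [h2, Chars.classInner_irrCharacter, if_pos rfl] at h1
    exact_mod_cast h1.symm
  have hone1 : m₁ (oneChar G) = 0 := by
    have h1 := hm₁ (oneChar G)
    have h2 : classInner (fun g => (φ : G → ℂ) g * conj ((gal σ φ : G → ℂ) g))
        ((oneChar G : IrrCharacter G) : G → ℂ) = classInner (φ : G → ℂ) (gal σ φ : G → ℂ) := by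
      simp [Chars.classInner_def, coe_oneChar]
    rw [h2, Chars.classInner_irrCharacter, if_neg hgne] at h1
    exact_mod_cast h1.symm
  have hk : (B.W : ℂ) * (((m₀ B.θ : ℂ) - m₁ B.θ) +
      ((m₀ (gal σ B.θ) : ℂ) - m₁ (gal σ B.θ))) = 1 := by
    have h1 := B.pair D F₀ F₁ heq _ h1X
    simp only [hF₀, hF₁, hm₀, hm₁, hone0, hone1, hε1] at h1
    rw [← h1]
    norm_num
  have hmX : ∀ ψ ∈ B.X, 1 ≤ m₀ ψ + m₁ ψ := fun ψ hψ => by
    have h1 := B.pair D F₀ F₁ heq ψ hψ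
    simp only [hF₀, hF₁, hm₀, hm₁] at h1
    rw [hk] at h1
    exact mult_ge _ (B.sign ψ hψ) 1 (Or.inl rfl) _ _ (by rw [h1]; simp)
  have hmY : 1 ≤ (m₀ B.θ + m₁ B.θ) + (m₀ (gal σ B.θ) + m₁ (gal σ B.θ)) := by
    by_contra hlt
    obtain ⟨a0, a1, a2, a3⟩ : m₀ B.θ = 0 ∧ m₁ B.θ = 0 ∧ m₀ (gal σ B.θ) = 0 ∧
        m₁ (gal σ B.θ) = 0 := by omega
    rw [a0, a1, a2, a3] at hk
    simp at hk
  set Fs : G → ℂ := fun g => F₀ g + F₁ g with hFs
  have hFc : IsCharacter G Fs :=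
    Chars.isCharacter_add (isCharacter_prod φ φ) (isCharacter_prod φ (gal σ φ))
  have hmF : ∀ ψ : IrrCharacter G,
      classInner Fs (ψ : G → ℂ) = ((m₀ ψ + m₁ ψ : ℕ) : ℂ) := fun ψ => by
    rw [show Fs = F₀ + F₁ from rfl, Chars.classInner_add_left, hm₀, hm₁, Nat.cast_add]
  have hF1 : Fs 1 = ((2 * (e * e) : ℕ) : ℂ) := by
    simp only [hFs, hF₀, hF₁]
    rw [show (gal σ φ : G → ℂ) 1 = (φ : G → ℂ) 1 from D.S.gal_reg φ 1 hreg1, D.apply_one,
      map_natCast]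
    push_cast
    ring
  have hdgal : charDegree (gal σ B.θ : G → ℂ) = charDegree (B.θ : G → ℂ) := by
    have h1 := B.gal_reg 1 hreg1
    rw [apply_one_eq_deg, apply_one_eq_deg] at h1
    exact_mod_cast h1
  have hdisj : Disjoint B.X {B.θ, gal σ B.θ} := by
    simp [Finset.disjoint_insert_right, B.θ_notMem, B.gal_notMem]
  set dθ := charDegree (B.θ : G → ℂ) with hdθ
  have hbudget : (∑ ψ ∈ B.X, charDegree (ψ : G → ℂ)) +
      ((m₀ B.θ + m₁ B.θ) + (m₀ (gal σ B.θ) + m₁ (gal σ B.θ))) * dθ ≤ 2 * (e * e) := by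
    have h1 := sum_mult_le hFc hF1 (B.X ∪ {B.θ, gal σ B.θ}) _ fun ψ _ => hmF ψ
    rw [Finset.sum_union hdisj, Finset.sum_pair B.ne_gal, hdgal, ← add_mul] at h1
    refine le_trans (Nat.add_le_add_right ?_ _) h1
    exact Finset.sum_le_sum fun ψ hψ => Nat.le_mul_of_pos_left _ (hmX ψ hψ)
  have hdd : ∀ ψ : IrrCharacter G, ψ ≠ oneChar G → 2 ≤ charDegree (ψ : G → ℂ) := fun ψ hne => by
    by_contra hlt
    have := deg_pos ψ
    exact hne (eq_one_of_deg_one D.perfect ψ (by omega))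
  have hdvd : ∀ ψ : IrrCharacter G, ∃ k : ℤ, ψ ∈ B.X →
      (charDegree (ψ : G → ℂ) : ℤ) = B.ε ψ + p * k := fun ψ => by
    by_cases hψ : ψ ∈ B.X
    · obtain ⟨k, hk⟩ := B.X_deg ψ hψ
      exact ⟨k, fun _ => by linarith⟩
    · exact ⟨0, fun h => absurd h hψ⟩
  choose k hk' using hdvd
  set X' := B.X.erase (oneChar G)
  have hX'mem : ∀ ψ ∈ X', ψ ∈ B.X ∧ ψ ≠ oneChar G := fun ψ hψ =>
    ⟨Finset.mem_of_mem_erase hψ, Finset.ne_of_mem_erase hψ⟩
  have hk1 : ∀ ψ ∈ X', 1 ≤ k ψ := fun ψ hψ => by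
    obtain ⟨h1, h2⟩ := hX'mem ψ hψ
    by_contra hlt
    have h3 : (p : ℤ) * k ψ ≤ 0 :=
      mul_nonpos_of_nonneg_of_nonpos (Int.natCast_nonneg p) (by omega)
    have := hk' ψ h1
    have := hdd ψ h2
    rcases B.sign ψ h1 with h4 | h4 <;> omega
  obtain ⟨jj, hjj⟩ := B.θ_deg
  have hrel := B.relation 1 hreg1
  rw [← Finset.add_sum_erase _ _ h1X, hε1] at hrel
  simp only [apply_one_eq_deg, h1deg, Nat.cast_one, Int.cast_one, mul_one] at hrel
  have hrelZ : (1 : ℤ) + ∑ ψ ∈ X', B.ε ψ * (charDegree (ψ : G → ℂ) : ℤ) + B.W * (dθ : ℤ) = 0 := by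
    exact_mod_cast hrel
  set a := ∑ ψ ∈ X', (k ψ - 1) with ha
  set b := ∑ ψ ∈ X', B.ε ψ * (k ψ - 1) with hb
  set E := ∑ ψ ∈ X', B.ε ψ with hE
  obtain ⟨ha0, hba, hba'⟩ := abs_sum_le X' B.ε k (fun ψ hψ => B.sign ψ (hX'mem ψ hψ).1) hk1
  have hcard : (X'.card : ℤ) = (e : ℤ) - 1 := by
    rw [Finset.card_erase_of_mem h1X, B.card_X, Nat.cast_sub (by have := D.two_le; omega)]
    rfl
  have hsd : ∑ ψ ∈ X', (charDegree (ψ : G → ℂ) : ℤ) = (p : ℤ) * ((e : ℤ) - 1) + p * a + E := by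
    rw [← hcard, ha, hE, Finset.sum_congr rfl (g := fun ψ => (p : ℤ) + p * (k ψ - 1) + B.ε ψ)
      fun ψ hψ => by rw [hk' ψ (hX'mem ψ hψ).1]; ring, Finset.sum_add_distrib,
      Finset.sum_add_distrib, Finset.sum_const, nsmul_eq_mul, ← Finset.mul_sum]
    ring
  have hsεd : ∑ ψ ∈ X', B.ε ψ * (charDegree (ψ : G → ℂ) : ℤ) =
      ((e : ℤ) - 1) + p * (E + b) := by
    rw [← hcard, hb, hE, Finset.sum_congr rfl
      (g := fun ψ => (1 : ℤ) + p * (B.ε ψ + B.ε ψ * (k ψ - 1))) fun ψ hψ => ?_,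
      Finset.sum_add_distrib, Finset.sum_const, ← Finset.mul_sum, Finset.sum_add_distrib,
      nsmul_one]
    rw [hk' ψ (hX'mem ψ hψ).1]
    rcases B.sign ψ (hX'mem ψ hψ).1 with h4 | h4 <;> rw [h4] <;> ring
  rw [hsεd] at hrelZ
  have hbud : (1 : ℤ) + ((p : ℤ) * ((e : ℤ) - 1) + p * a + E) + dθ ≤ 2 * ((e : ℤ) * e) := by
    rw [← hsd]
    have h1 : (∑ ψ ∈ B.X, charDegree (ψ : G → ℂ)) + dθ ≤ 2 * (e * e) :=
      le_trans (Nat.add_le_add_left (Nat.le_mul_of_pos_left _ hmY) _) hbudget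
    rw [← Finset.add_sum_erase _ _ h1X, h1deg] at h1
    exact_mod_cast h1
  have hp5 : (5 : ℤ) ≤ p := by exact_mod_cast D.hp5
  have hpe : (p : ℤ) = 2 * e + 1 := by exact_mod_cast D.he.symm
  have hdθ0 : (0 : ℤ) < dθ := by exact_mod_cast deg_pos B.θ
  have hdθe : (dθ : ℤ) = p * jj - e * B.W := by linarith
  have hkey : a = 0 ∧ ((B.W = 1 ∧ dθ = e + 1) ∨ (B.W = -1 ∧ dθ = e)) ∧
      (1 : ℤ) + ((p : ℤ) * ((e : ℤ) - 1) + p * a + E) + dθ = 2 * ((e : ℤ) * e) := by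
    rcases B.sign_W with hW | hW <;> rw [hW] at hrelZ hdθe ⊢
    · have hE' : E + b + jj = 0 := by
        have : (p : ℤ) * (E + b + jj) = 0 := by rw [hdθe] at hrelZ; linarith
        exact (mul_eq_zero.1 this).resolve_left (by omega)
      have hj1 : 1 ≤ jj := by
        by_contra hlt
        have : (p : ℤ) * jj ≤ 0 := mul_nonpos_of_nonneg_of_nonpos (by omega) (by omega)
        omega
      have h1 : ((p : ℤ) - 1) * (a + (jj - 1)) ≤ 0 := by nlinarith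
      have h2 : a + (jj - 1) ≤ 0 := by
        by_contra hlt
        have := mul_pos (show (0 : ℤ) < (p : ℤ) - 1 by omega) (not_le.1 hlt)
        omega
      have ha' : a = 0 := by omega
      have hj' : jj = 1 := by omega
      have hb' : b = 0 := by omega
      refine ⟨ha', Or.inl ⟨rfl, ?_⟩, ?_⟩
      · rw [hj'] at hdθe; omega
      · rw [ha', hdθe, hj', show E = -1 by omega, hpe]; ring
    · have hE' : E + b - jj = 0 := by
        have : (p : ℤ) * (E + b - jj) = 0 := by rw [hdθe] at hrelZ; linarith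
        exact (mul_eq_zero.1 this).resolve_left (by omega)
      have hj0 : 0 ≤ jj := by
        by_contra hlt
        have : (p : ℤ) * jj ≤ (p : ℤ) * (-1) := mul_le_mul_of_nonneg_left (by omega) (by omega)
        omega
      have h1 : ((p : ℤ) - 1) * (a + jj) ≤ 0 := by nlinarith
      have h2 : a + jj ≤ 0 := by
        by_contra hlt
        have := mul_pos (show (0 : ℤ) < (p : ℤ) - 1 by omega) (not_le.1 hlt)
        omega
      have ha' : a = 0 := by omega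
      have hj' : jj = 0 := by omega
      have hb' : b = 0 := by omega
      refine ⟨ha', Or.inr ⟨rfl, ?_⟩, ?_⟩
      · rw [hj'] at hdθe; omega
      · rw [ha', hdθe, hj', show E = 0 by omega, hpe]; ring
  obtain ⟨haz, hθd, htight⟩ := hkey
  have hXdeg : ∀ ψ ∈ B.X, ψ ≠ oneChar G → (charDegree (ψ : G → ℂ) : ℤ) = p + B.ε ψ := by
    intro ψ hψ hne
    have h1 := (Finset.sum_eq_zero_iff_of_nonneg fun ψ h => by linarith [hk1 ψ h]).1 haz ψ
      (Finset.mem_erase.2 ⟨hne, hψ⟩)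
    rw [hk' ψ hψ, show k ψ = 1 by omega]
    ring
  -- equality
  have htightN : (∑ ψ ∈ B.X, charDegree (ψ : G → ℂ)) + dθ = 2 * (e * e) := by
    rw [← Finset.add_sum_erase _ _ h1X, h1deg]
    rw [← hsd] at htight
    exact_mod_cast htight
  have hY1 : (m₀ B.θ + m₁ B.θ) + (m₀ (gal σ B.θ) + m₁ (gal σ B.θ)) = 1 := by
    have h1 : ((m₀ B.θ + m₁ B.θ) + (m₀ (gal σ B.θ) + m₁ (gal σ B.θ))) * dθ ≤ 1 * dθ := by omega
    have := Nat.le_of_mul_le_mul_right h1 (deg_pos B.θ)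
    omega
  obtain ⟨θa, θb, hab, hma, hmb⟩ : ∃ θa θb : IrrCharacter G,
      (θa = B.θ ∧ θb = gal σ B.θ ∨ θa = gal σ B.θ ∧ θb = B.θ) ∧
      m₀ θa + m₁ θa = 1 ∧ m₀ θb + m₁ θb = 0 := by
    rcases Nat.eq_zero_or_pos (m₀ B.θ + m₁ B.θ) with h0 | h0
    · exact ⟨gal σ B.θ, B.θ, Or.inr ⟨rfl, rfl⟩, by omega, h0⟩
    · exact ⟨B.θ, gal σ B.θ, Or.inl ⟨rfl, rfl⟩, by omega, by omega⟩
  have hθaX : θa ∉ B.X := by
    rcases hab with ⟨e1, -⟩ | ⟨e1, -⟩ <;> rw [e1]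
    exacts [B.θ_notMem, B.gal_notMem]
  have hFeq : Fs = ∑ ψ ∈ insert θa B.X, (ψ : G → ℂ) := by
    refine eq_sum_of_mult hFc _ (fun ψ hψ => ?_) ?_
    · rw [hmF, Nat.cast_ne_zero]
      rcases Finset.mem_insert.1 hψ with h1 | h1
      · rw [h1, hma]; exact one_ne_zero
      · have := hmX ψ h1; omega
    · have hda : charDegree (θa : G → ℂ) = dθ := by
        rcases hab with ⟨e1, -⟩ | ⟨e1, -⟩ <;> rw [e1]
        exact hdgal
      rw [hF1, Finset.sum_insert hθaX, hda, add_comm, htightN]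
  have hexact : ∀ g : G, F₀ g + F₁ g = (∑ ψ ∈ B.X, (ψ : G → ℂ) g) + (θa : G → ℂ) g := fun g => by
    have h1 := congrFun hFeq g
    rw [Finset.sum_insert hθaX, Pi.add_apply, Finset.sum_apply] at h1
    rw [add_comm _ ((θa : G → ℂ) g)]
    exact h1
  refine ⟨hXdeg, hθd, fun g hg => ?_, θa, θb, hab, hexact, ?_, ?_⟩
  · have h1 := hexact g
    rw [← heq g hg] at h1
    have h2 : (θa : G → ℂ) g = (B.θ : G → ℂ) g := by
      rcases hab with ⟨e1, -⟩ | ⟨e1, -⟩ <;> rw [e1]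
      exact B.gal_reg g hg
    rw [← h2, ← h1]
    simp only [hF₀]
    ring
  · rw [hm₀, hm₁, ← Nat.cast_add, hma, Nat.cast_one]
  · rw [hm₀, hm₁, ← Nat.cast_add, hmb, Nat.cast_zero]

open scoped Classical in
/-- The block of `φ` when the centre is not trivial. -/
theorem lam (D : Half M p m K e x σ H φ) (B₁ : Blk p K e x σ μ₁) (P : Princ p K e x σ φ μ₁ B₁)
    (B : Blk p K e x σ μ) (hφ : Over (φ : G → ℂ) μ) (hne : Subgroup.center G ≠ ⊥) :
    B₁.W = 1 ∧ (∀ ψ ∈ B.X, (charDegree (ψ : G → ℂ) : ℤ) = p + B.ε ψ) ∧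
      ∀ g : G, ¬ p ∣ orderOf g →
        (∑ ψ ∈ B.X, (ψ : G → ℂ) g) + (φ : G → ℂ) g =
            2 * ((φ : G → ℂ) g * conj ((B₁.θ : G → ℂ) g)) ∧
          ∑ ψ ∈ B.X, (B.ε ψ : ℂ) * (ψ : G → ℂ) g = (φ : G → ℂ) g := by
  have hreg1 : ¬ p ∣ orderOf (1 : G) := by rw [orderOf_one]; exact hp.out.not_dvd_one
  obtain ⟨hpair, hWB⟩ := B.phi_mem D hφ
  obtain ⟨θa, θb, hab, -, hA, hB⟩ := P.exists_a
  have hrθ : ∀ g : G, ¬ p ∣ orderOf g → (θa : G → ℂ) g = (B₁.θ : G → ℂ) g ∧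
      (θb : G → ℂ) g = (B₁.θ : G → ℂ) g := fun g hg => by
    rcases hab with ⟨e1, e2⟩ | ⟨e1, e2⟩ <;> rw [e1, e2] <;>
      simp [B₁.gal_reg g hg]
  set F₀ : G → ℂ := fun g => (φ : G → ℂ) g * conj ((θa : G → ℂ) g) with hF₀
  set F₁ : G → ℂ := fun g => (φ : G → ℂ) g * conj ((θb : G → ℂ) g) with hF₁
  have heq : ∀ g : G, ¬ p ∣ orderOf g → F₀ g = F₁ g := fun g hg => by
    simp only [hF₀, hF₁]
    rw [(hrθ g hg).1, (hrθ g hg).2]
  have hsw : ∀ (η ξ : IrrCharacter G),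
      classInner (fun g => (φ : G → ℂ) g * conj ((η : G → ℂ) g)) (ξ : G → ℂ) =
        classInner (fun g => (φ : G → ℂ) g * conj ((ξ : G → ℂ) g)) (η : G → ℂ) := fun η ξ => by
    rw [Chars.classInner_def, Chars.classInner_def]
    congr 1
    exact Finset.sum_congr rfl fun g _ => by ring
  choose m₀ hm₀ using fun ψ : IrrCharacter G =>
    Chars.exists_classInner_eq_nat (isCharacter_prod φ θa) (Chars.irr_isCharacter ψ)
  choose m₁ hm₁ using fun ψ : IrrCharacter G =>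
    Chars.exists_classInner_eq_nat (isCharacter_prod φ θb) (Chars.irr_isCharacter ψ)
  rw [← hsw θa φ, ← hsw θa (gal σ φ), hm₀, hm₀] at hA
  rw [← hsw θb φ, ← hsw θb (gal σ φ), hm₁, hm₁] at hB
  have hA' : m₀ φ + m₀ (gal σ φ) = 1 := by exact_mod_cast hA
  have hB' : m₁ φ + m₁ (gal σ φ) = 0 := by exact_mod_cast hB
  have hmX : ∀ ψ ∈ B.X, 1 ≤ m₀ ψ + m₁ ψ := fun ψ hψ => by
    have h1 := B.pair D F₀ F₁ heq ψ hψ
    simp only [hF₀, hF₁, hm₀, hm₁] at h1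
    refine mult_ge _ (B.sign ψ hψ) (-1) (Or.inr rfl) _ _ ?_
    rw [h1, hWB]
    push_cast
    have e0 : (m₁ φ : ℂ) = 0 := by rw [show m₁ φ = 0 by omega, Nat.cast_zero]
    have e1 : (m₁ (gal σ φ) : ℂ) = 0 := by rw [show m₁ (gal σ φ) = 0 by omega, Nat.cast_zero]
    rcases hpair with ⟨q1, q2⟩ | ⟨q1, q2⟩ <;> rw [q2, q1] <;> linear_combination -hA + e0 + e1
  set Fs : G → ℂ := fun g => F₀ g + F₁ g with hFs
  have hFc : IsCharacter G Fs :=
    Chars.isCharacter_add (isCharacter_prod φ θa) (isCharacter_prod φ θb)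
  have hmF : ∀ ψ : IrrCharacter G,
      classInner Fs (ψ : G → ℂ) = ((m₀ ψ + m₁ ψ : ℕ) : ℂ) := fun ψ => by
    rw [show Fs = F₀ + F₁ from rfl, Chars.classInner_add_left, hm₀, hm₁, Nat.cast_add]
  set d := charDegree (B₁.θ : G → ℂ) with hd
  have hF1 : Fs 1 = ((2 * (e * d) : ℕ) : ℂ) := by
    simp only [hFs, hF₀, hF₁]
    rw [(hrθ 1 hreg1).1, (hrθ 1 hreg1).2, D.apply_one, apply_one_eq_deg, map_natCast, ← hd]
    push_cast
    ring
  have hmp : ∀ ψ : IrrCharacter G, ψ = φ ∨ ψ = gal σ φ → ψ ∉ B.X := by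
    rintro ψ (rfl | rfl) hX
    · rcases hpair with ⟨q1, -⟩ | ⟨-, q2⟩
      · exact B.θ_notMem (q1 ▸ hX)
      · exact B.gal_notMem (q2 ▸ hX)
    · rcases hpair with ⟨-, q2⟩ | ⟨q1, -⟩
      · exact B.gal_notMem (q2 ▸ hX)
      · exact B.θ_notMem (q1 ▸ hX)
  obtain ⟨φc, hφc, hmc⟩ : ∃ φc : IrrCharacter G, (φc = φ ∨ φc = gal σ φ) ∧ 1 ≤ m₀ φc + m₁ φc := by
    rcases Nat.eq_zero_or_pos (m₀ φ) with h0 | h0
    · exact ⟨gal σ φ, Or.inr rfl, by omega⟩
    · exact ⟨φ, Or.inl rfl, by omega⟩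
  have hφcreg : ∀ g : G, ¬ p ∣ orderOf g → (φc : G → ℂ) g = (φ : G → ℂ) g := fun g hg => by
    rcases hφc with rfl | rfl
    · rfl
    · exact D.S.gal_reg φ 1 hg
  have hdc : charDegree (φc : G → ℂ) = e := by
    have h1 := hφcreg 1 hreg1
    rw [D.apply_one, apply_one_eq_deg] at h1
    exact_mod_cast h1
  have hne1 : ∀ ψ ∈ B.X, ψ ≠ oneChar G := by
    intro ψ hψ h1
    subst h1
    apply hne
    rw [Subgroup.eq_bot_iff_forall]
    intro z hz
    have h2 := B.overX _ hψ z hz 1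
    simp only [coe_oneChar, mul_one] at h2
    refine D.hfaith z ?_
    have h3 := hφ z hz 1
    rw [one_mul, ← h2, one_mul] at h3
    exact h3
  have hdd : ∀ ψ : IrrCharacter G, ψ ≠ oneChar G → 2 ≤ charDegree (ψ : G → ℂ) := fun ψ hne => by
    by_contra hlt
    have := deg_pos ψ
    exact hne (eq_one_of_deg_one D.perfect ψ (by omega))
  have hdvd : ∀ ψ : IrrCharacter G, ∃ k : ℤ, ψ ∈ B.X →
      (charDegree (ψ : G → ℂ) : ℤ) = B.ε ψ + p * k := fun ψ => by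
    by_cases hψ : ψ ∈ B.X
    · obtain ⟨k, hk⟩ := B.X_deg ψ hψ
      exact ⟨k, fun _ => by linarith⟩
    · exact ⟨0, fun h => absurd h hψ⟩
  choose k hk' using hdvd
  have hk1 : ∀ ψ ∈ B.X, 1 ≤ k ψ := fun ψ hψ => by
    by_contra hlt
    have h3 : (p : ℤ) * k ψ ≤ 0 :=
      mul_nonpos_of_nonneg_of_nonpos (Int.natCast_nonneg p) (by omega)
    have := hk' ψ hψ
    have := hdd ψ (hne1 ψ hψ)
    rcases B.sign ψ hψ with h4 | h4 <;> omega
  set a := ∑ ψ ∈ B.X, (k ψ - 1) with ha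
  set b := ∑ ψ ∈ B.X, B.ε ψ * (k ψ - 1) with hb
  set E := ∑ ψ ∈ B.X, B.ε ψ with hE
  obtain ⟨ha0, hba, hba'⟩ := abs_sum_le B.X B.ε k B.sign hk1
  have hsd : ∑ ψ ∈ B.X, (charDegree (ψ : G → ℂ) : ℤ) = (p : ℤ) * (e : ℤ) + p * a + E := by
    rw [ha, hE, Finset.sum_congr rfl (g := fun ψ => (p : ℤ) + p * (k ψ - 1) + B.ε ψ)
      fun ψ hψ => by rw [hk' ψ hψ]; ring, Finset.sum_add_distrib,
      Finset.sum_add_distrib, Finset.sum_const, B.card_X, nsmul_eq_mul, ← Finset.mul_sum]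
    ring
  have hsεd : ∑ ψ ∈ B.X, B.ε ψ * (charDegree (ψ : G → ℂ) : ℤ) = (e : ℤ) + p * (E + b) := by
    rw [hb, hE, Finset.sum_congr rfl
      (g := fun ψ => (1 : ℤ) + p * (B.ε ψ + B.ε ψ * (k ψ - 1))) fun ψ hψ => ?_,
      Finset.sum_add_distrib, Finset.sum_const, B.card_X, ← Finset.mul_sum, Finset.sum_add_distrib,
      nsmul_one]
    rw [hk' ψ hψ]
    rcases B.sign ψ hψ with h4 | h4 <;> rw [h4] <;> ring
  have hrelg : ∀ g : G, ¬ p ∣ orderOf g →
      ∑ ψ ∈ B.X, (B.ε ψ : ℂ) * (ψ : G → ℂ) g = (φ : G → ℂ) g := fun g hg => by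
    have h1 := B.relation g hg
    have h2 : (B.θ : G → ℂ) g = (φ : G → ℂ) g := by
      rcases hpair with ⟨q1, -⟩ | ⟨-, q2⟩
      · rw [q1]
      · rw [← B.gal_reg g hg, q2]
    rw [hWB, h2] at h1
    push_cast at h1
    linear_combination h1
  have hrel := hrelg 1 hreg1
  rw [D.apply_one] at hrel
  simp only [apply_one_eq_deg] at hrel
  have hrelZ : ∑ ψ ∈ B.X, B.ε ψ * (charDegree (ψ : G → ℂ) : ℤ) = (e : ℤ) := by exact_mod_cast hrel
  rw [hsεd] at hrelZ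
  have hp5 : (5 : ℤ) ≤ p := by exact_mod_cast D.hp5
  have hEb : E = -b := by
    have : (p : ℤ) * (E + b) = 0 := by linarith
    have := (mul_eq_zero.1 this).resolve_left (by omega)
    omega
  have hbudN : (∑ ψ ∈ B.X, charDegree (ψ : G → ℂ)) + e ≤ 2 * (e * d) := by
    have h1 := sum_mult_le hFc hF1 (insert φc B.X) _ fun ψ _ => hmF ψ
    rw [Finset.sum_insert (hmp φc hφc), hdc] at h1
    refine le_trans ?_ h1
    rw [add_comm]
    exact Nat.add_le_add (Nat.le_mul_of_pos_left _ hmc)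
      (Finset.sum_le_sum fun ψ hψ => Nat.le_mul_of_pos_left _ (hmX ψ hψ))
  have hbudZ : (p : ℤ) * (e : ℤ) + p * a + E + e ≤ 2 * ((e : ℤ) * d) := by
    rw [← hsd]; exact_mod_cast hbudN
  have hpe : (p : ℤ) = 2 * e + 1 := by exact_mod_cast D.he.symm
  have h2e : (2 : ℤ) ≤ e := by exact_mod_cast D.two_le
  have hWd : B₁.W = 1 ∧ d = e + 1 := by
    rcases P.degθ with h1 | h1
    · exact h1
    exfalso
    rw [show (d : ℤ) = e by exact_mod_cast h1.2, hEb] at hbudZ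
    nlinarith
  rw [show (d : ℤ) = e + 1 by exact_mod_cast hWd.2, hEb] at hbudZ
  have haz : a = 0 := by
    have h1 : ((p : ℤ) - 1) * a ≤ 0 := by nlinarith
    by_contra hne0
    have := mul_pos (show (0 : ℤ) < (p : ℤ) - 1 by omega) (show (0 : ℤ) < a by omega)
    omega
  have hdegs : ∀ ψ ∈ B.X, (charDegree (ψ : G → ℂ) : ℤ) = p + B.ε ψ := fun ψ hψ => by
    have h1 := (Finset.sum_eq_zero_iff_of_nonneg fun ψ h => by linarith [hk1 ψ h]).1 haz ψ hψ
    rw [hk' ψ hψ, show k ψ = 1 by omega]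
    ring
  have htight : (∑ ψ ∈ B.X, charDegree (ψ : G → ℂ)) + e = 2 * (e * d) := by
    have h1 : ∑ ψ ∈ B.X, (charDegree (ψ : G → ℂ) : ℤ) + e = 2 * ((e : ℤ) * d) := by
      rw [hsd, hWd.2, hEb, haz, show b = 0 by omega, hpe]
      push_cast
      ring
    exact_mod_cast h1
  have hFeq : Fs = ∑ ψ ∈ insert φc B.X, (ψ : G → ℂ) := by
    refine eq_sum_of_mult hFc _ (fun ψ hψ => ?_) ?_
    · rw [hmF, Nat.cast_ne_zero]
      rcases Finset.mem_insert.1 hψ with h1 | h1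
      · rw [h1]; omega
      · have := hmX ψ h1; omega
    · rw [hF1, Finset.sum_insert (hmp φc hφc), hdc, add_comm, htight]
  refine ⟨hWd.1, hdegs, fun g hg => ⟨?_, hrelg g hg⟩⟩
  have h1 := congrFun hFeq g
  rw [Finset.sum_insert (hmp φc hφc), Pi.add_apply, Finset.sum_apply, hφcreg g hg] at h1
  simp only [hFs, hF₀, hF₁, (hrθ g hg).1, (hrθ g hg).2] at h1
  linear_combination -h1

end Half

end Cfsg.Agent.Blocks.HalfDegree
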