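import Cfsg.Agent.Blocks.HalfDegree.Degrees
import Cfsg.Agent.Chars2.ClassSum

/-!
The values at regular non-central elements have absolute value at most one.
-/

set_option autoImplicit false
set_option linter.unusedSectionVars false
set_option linter.style.haveILetI false

namespace Cfsg.Agent.Blocks.HalfDegree

open Cfsg Cfsg.Agent Cfsg.Agent.Blocks Cfsg.Agent.BlockChar Cfsg.Agent.Chars2.Cyc Function
  Screen.BrauerP
open scoped ComplexConjugate

universe u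

variable {G : Type u} [Group G] [Fintype G]

/-- The class sum of `x` and of the inverse of `v` meets every class non-negatively. -/
theorem classSum_nonneg (x v g : G) :
    ∃ r : ℝ, 0 ≤ r ∧ ∑ χ : IrrCharacter G,
      (χ : G → ℂ) x * conj ((χ : G → ℂ) v) * conj ((χ : G → ℂ) g) / (χ : G → ℂ) 1 = (r : ℂ) := by
  classical
  set cu := (Finset.univ.filter (IsConj x)).card with hcu
  set cv := (Finset.univ.filter (IsConj v⁻¹)).card with hcv
  set T := Finset.univ.filter (fun q : G × G => IsConj x q.1 ∧ IsConj v⁻¹ q.2) with hT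
  set N : ℕ := ∑ q ∈ T, if IsConj (q.1 * q.2) g then
    Nat.card (Subgroup.centralizer ({q.1 * q.2} : Set G)) else 0 with hN
  have hcu0 : (cu : ℂ) ≠ 0 := Nat.cast_ne_zero.2 (Finset.card_pos.2 ⟨x, Finset.mem_filter.2
    ⟨Finset.mem_univ x, IsConj.refl x⟩⟩).ne'
  have hcv0 : (cv : ℂ) ≠ 0 := Nat.cast_ne_zero.2 (Finset.card_pos.2 ⟨v⁻¹, Finset.mem_filter.2
    ⟨Finset.mem_univ _, IsConj.refl _⟩⟩).ne'
  refine ⟨(N : ℝ) / ((cu : ℝ) * cv), by positivity, ?_⟩
  have h1 : (cu : ℂ) * cv * ∑ χ : IrrCharacter G,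
      (χ : G → ℂ) x * conj ((χ : G → ℂ) v) * conj ((χ : G → ℂ) g) / (χ : G → ℂ) 1 = (N : ℂ) := by
    rw [Finset.mul_sum, Finset.sum_congr rfl (g := fun χ : IrrCharacter G =>
      ∑ q ∈ T, (χ : G → ℂ) (q.1 * q.2) * conj ((χ : G → ℂ) g)) fun χ _ => ?_, Finset.sum_comm, hN,
      Nat.cast_sum]
    · refine Finset.sum_congr rfl fun q _ => ?_
      rw [Chars.column_orth]
      split_ifs <;> simp
    · have h2 : (∑ q ∈ T, (χ : G → ℂ) (q.1 * q.2)) * (χ : G → ℂ) 1 =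
          (cu : ℂ) * (cv : ℂ) * (χ : G → ℂ) x * (χ : G → ℂ) v⁻¹ := by
        convert Chars2.sum_class_class χ.2 x v⁻¹
      rw [Chars.char_inv_eq_conj (Chars.irr_isCharacter χ)] at h2
      rw [← Finset.sum_mul]
      have h0 := Chars.irr_apply_one_ne_zero χ.2
      field_simp
      linear_combination -(conj ((χ : G → ℂ) g)) * h2
  push_cast
  rw [eq_div_iff (mul_ne_zero hcu0 hcv0), ← h1]
  ring

variable {p m K e : ℕ} [hp : Fact p.Prime] {M : Ideal AlgInt}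
  [M.IsMaximal] {x : G} {σ : ℂ ≃+* ℂ} {H : Subgroup G} [Fintype H] {φ : IrrCharacter G}
  {μ μ₁ : G → ℂ}

open scoped Classical in
/-- The part over `μ` of the sum. -/
noncomputable def partSum (μ : G → ℂ) (x v g : G) : ℂ :=
  ∑ χ ∈ Finset.univ.filter (fun χ : IrrCharacter G => Over (χ : G → ℂ) μ),
    (χ : G → ℂ) x * conj ((χ : G → ℂ) v) * conj ((χ : G → ℂ) g) / (χ : G → ℂ) 1

namespace Blk

theorem mu_mul (B : Blk p K e x σ μ) {z w : G} (hz : z ∈ Subgroup.center G)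
    (hw : w ∈ Subgroup.center G) : μ (z * w) = μ z * μ w := by
  have h1 := B.overθ (z * w) (Subgroup.mul_mem _ hz hw) 1
  have h2 := B.overθ w hw z
  have h3 := B.overθ z hz 1
  rw [one_mul] at h1 h3
  rw [h3, h1] at h2
  exact mul_right_cancel₀ (Chars.irr_apply_one_ne_zero B.θ.2) (by linear_combination h2)

theorem card_mul_partSum (B : Blk p K e x σ μ) (x' v g : G)
    [Fintype (Subgroup.center G)] :
    (Nat.card (Subgroup.center G) : ℂ) * partSum μ x' v g =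
      ∑ z : Subgroup.center G, μ z * ∑ χ : IrrCharacter G,
        (χ : G → ℂ) x' * conj ((χ : G → ℂ) v) * conj ((χ : G → ℂ) (g * z)) / (χ : G → ℂ) 1 := by
  classical
  simp only [partSum, Finset.mul_sum, Finset.sum_filter]
  rw [Finset.sum_comm]
  refine Finset.sum_congr rfl fun χ _ => ?_
  split_ifs with h
  · rw [Finset.sum_congr rfl (g := fun _ =>
      (χ : G → ℂ) x' * conj ((χ : G → ℂ) v) * conj ((χ : G → ℂ) g) / (χ : G → ℂ) 1) fun z _ => ?_,
      Finset.sum_const, Finset.card_univ, nsmul_eq_mul, Nat.card_eq_fintype_card]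
    rw [h z z.2 g, map_mul]
    have h1 : μ z * conj (μ z) = 1 := by rw [Complex.mul_conj', B.mu_norm z.2]; simp
    linear_combination ((χ : G → ℂ) x' * conj ((χ : G → ℂ) v) * conj ((χ : G → ℂ) g) /
      (χ : G → ℂ) 1) * h1
  · obtain ⟨z₀, hz₀, hne⟩ : ∃ z₀ ∈ Subgroup.center G, ∃ g, (χ : G → ℂ) (g * z₀) ≠
        μ z₀ * (χ : G → ℂ) g := by
      by_contra hno
      push Not at hno
      exact h hno
    obtain ⟨w, -, hwv⟩ := exists_scalar χ.2 hz₀
    obtain ⟨g₁, hg₁⟩ := hne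
    rw [hwv] at hg₁
    have hwne : μ z₀ * conj w ≠ 1 := by
      intro h1
      apply hg₁
      have h2 : ‖w‖ = 1 := by
        have h3 := congrArg (‖·‖) h1
        simpa [norm_mul, B.mu_norm hz₀] using h3
      have h4 : w * conj w = 1 := by rw [Complex.mul_conj', h2]; simp
      linear_combination (χ : G → ℂ) g₁ * (μ z₀ * h4 - w * h1)
    set F : Subgroup.center G → ℂ := fun z => μ z *
      ((χ : G → ℂ) x' * conj ((χ : G → ℂ) v) * conj ((χ : G → ℂ) (g * z)) / (χ : G → ℂ) 1) with hF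
    have hs : ∑ z, F z = μ z₀ * conj w * ∑ z, F z := by
      rw [Finset.mul_sum]
      refine (Fintype.sum_equiv (Equiv.mulRight (⟨z₀, hz₀⟩ : Subgroup.center G)) _ _
        fun z => ?_).symm
      show _ = μ ((z : G) * z₀) *
        ((χ : G → ℂ) x' * conj ((χ : G → ℂ) v) * conj ((χ : G → ℂ) (g * ((z : G) * z₀))) /
          (χ : G → ℂ) 1)
      rw [← mul_assoc g, hwv, B.mu_mul z.2 hz₀, map_mul]
      simp only [hF]
      ring
    have h5 : (1 - μ z₀ * conj w) * ∑ z, F z = 0 := by linear_combination hs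
    rw [mul_zero]
    exact ((mul_eq_zero.1 h5).resolve_left (sub_ne_zero.2 fun h6 => hwne h6.symm)).symm

theorem partSum_eq (B : Blk p K e x σ μ) (D : Half M p m K e x σ H φ) {g : G}
    (hg : ¬ p ∣ orderOf g) (i : ℕ) :
    partSum μ x (x ^ K ^ i) g =
      ∑ ψ ∈ B.X, conj ((ψ : G → ℂ) g) / (charDegree (ψ : G → ℂ) : ℂ) +
        ((B.θ : G → ℂ) x * conj ((B.θ : G → ℂ) (x ^ K ^ i)) +
          (gal σ B.θ : G → ℂ) x * conj ((gal σ B.θ : G → ℂ) (x ^ K ^ i))) *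
          (conj ((B.θ : G → ℂ) g) / (charDegree (B.θ : G → ℂ) : ℂ)) := by
  classical
  have hdj : Disjoint B.X {B.θ, gal σ B.θ} := by
    simp [Finset.disjoint_insert_right, B.θ_notMem, B.gal_notMem]
  have hsub : B.X ∪ {B.θ, gal σ B.θ} ⊆
      Finset.univ.filter (fun χ : IrrCharacter G => Over (χ : G → ℂ) μ) := by
    intro ψ hψ
    refine Finset.mem_filter.2 ⟨Finset.mem_univ _, ?_⟩
    simp only [Finset.mem_union, Finset.mem_insert, Finset.mem_singleton] at hψ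
    rcases hψ with h | rfl | rfl
    exacts [B.overX _ h, B.overθ, B.overθ']
  rw [partSum, ← Finset.sum_subset hsub ?_, Finset.sum_union hdj, Finset.sum_pair B.ne_gal]
  · congr 1
    · refine Finset.sum_congr rfl fun ψ hψ => ?_
      have h1 := B.X_value ψ hψ 0
      rw [pow_zero, pow_one] at h1
      rw [h1, B.X_value ψ hψ i, map_intCast, apply_one_eq_deg]
      rcases B.sign ψ hψ with h | h <;> simp [h]
    · have hdg : (gal σ B.θ : G → ℂ) 1 = (B.θ : G → ℂ) 1 :=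
        B.gal_reg 1 (by rw [orderOf_one]; exact hp.out.not_dvd_one)
      rw [B.gal_reg g hg, hdg, apply_one_eq_deg]
      ring
  · intro ψ hψ hnot
    simp only [Finset.mem_union, Finset.mem_insert, Finset.mem_singleton, not_or] at hnot
    have h := B.vanish ψ (Finset.mem_filter.1 hψ).2 hnot.1 hnot.2.1 hnot.2.2 0
    rw [pow_zero, pow_one] at h
    rw [h]
    simp

end Blk

/-- The sum over the members of degree `p + ε`. -/
theorem sum_div_deg (X : Finset (IrrCharacter G)) (ε : IrrCharacter G → ℤ) (hp3 : 3 ≤ p)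
    (hs : ∀ ψ ∈ X, ε ψ = 1 ∨ ε ψ = -1)
    (hd : ∀ ψ ∈ X, (charDegree (ψ : G → ℂ) : ℤ) = p + ε ψ) (g : G) :
    ((p : ℂ) ^ 2 - 1) * ∑ ψ ∈ X, conj ((ψ : G → ℂ) g) / (charDegree (ψ : G → ℂ) : ℂ) =
      (p : ℂ) * conj (∑ ψ ∈ X, (ψ : G → ℂ) g) - conj (∑ ψ ∈ X, (ε ψ : ℂ) * (ψ : G → ℂ) g) := by
  simp only [map_sum, map_mul, map_intCast, Finset.mul_sum]
  rw [← Finset.sum_sub_distrib]
  refine Finset.sum_congr rfl fun ψ hψ => ?_
  have h1 : (charDegree (ψ : G → ℂ) : ℂ) = (p : ℂ) + (ε ψ : ℂ) := by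
    have := hd ψ hψ
    have h' : ((charDegree (ψ : G → ℂ) : ℤ) : ℂ) = (((p : ℤ) + ε ψ : ℤ) : ℂ) := by rw [this]
    push_cast at h'
    exact h'
  have h2 : (charDegree (ψ : G → ℂ) : ℂ) ≠ 0 := Nat.cast_ne_zero.2 (deg_pos ψ).ne'
  have h3 : ((ε ψ : ℂ)) * ε ψ = 1 := by rcases hs ψ hψ with h | h <;> simp [h]
  field_simp
  rw [h1]
  linear_combination (conj ((ψ : G → ℂ) g)) * h3

theorem im_eq_zero_of_eq {a c t : ℂ} {r : ℝ} (hc : c.im = 0) (hc0 : c.re ≠ 0) (ha : a.im = 0)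
    (h : a + c * t = (r : ℂ)) : t.im = 0 := by
  have h1 := congrArg Complex.im h
  simp [Complex.add_im, Complex.mul_im, hc, ha, hc0] at h1
  exact h1

theorem le_one_of_ineq {p s t : ℝ} (hs0 : 0 ≤ s) (hs : 2 * s < p - 1)
    (h1 : s * (2 * t + p + 1) ≤ 2 * s ^ 2 + (p - 1) * t + (p - 1))
    (h2 : s * (p + 1 - 2 * t) ≤ 2 * s ^ 2 - (p - 1) * t + (p - 1)) : s ≤ 1 := by
  by_contra hlt
  push Not at hlt
  rcases le_or_gt 0 t with ht | ht
  · nlinarith [mul_pos (sub_pos.2 hs) (show 0 < s + t - 1 by linarith)]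
  · nlinarith [mul_pos (sub_pos.2 hs) (show 0 < s - t - 1 by linarith)]

theorem le_one_of_ineq_real {p t : ℝ} (hs : 2 * |t| < p - 1)
    (h1 : 0 ≤ (t + 1) * (2 * t + p - 1)) (h2 : 0 ≤ (t - 1) * (2 * t - p + 1)) : |t| ≤ 1 := by
  rw [abs_le]
  constructor
  · by_contra hlt
    push Not at hlt
    have := abs_lt.1 (show |t| < (p - 1) / 2 by linarith)
    nlinarith [mul_pos (show 0 < -(t + 1) by linarith) (show 0 < 2 * t + p - 1 by linarith)]
  · by_contra hlt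
    push Not at hlt
    have := abs_lt.1 (show |t| < (p - 1) / 2 by linarith)
    nlinarith [mul_pos (show 0 < t - 1 by linarith) (show 0 < -(2 * t - p + 1) by linarith)]

namespace Half

theorem norm_lt (D : Half M p m K e x σ H φ) {g : G} (hg : g ∉ Subgroup.center G) :
    2 * ‖(φ : G → ℂ) g‖ < (p : ℝ) - 1 := by
  have hle : ‖(φ : G → ℂ) g‖ ≤ (e : ℝ) := by
    obtain ⟨n, ρ, hρ⟩ := Chars.irr_isCharacter φ
    have h1 := congrFun hρ 1
    rw [Representation.char_one, D.apply_one, Nat.cast_inj] at h1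
    have h2 := Chars.rep_norm_char_le ρ g
    rw [hρ, h1] at h2
    exact h2
  have hne : ‖(φ : G → ℂ) g‖ ≠ (e : ℝ) := fun h => hg (mem_center_of_norm
    (Chars.irr_isCharacter φ) D.hfaith (by rw [h, D.apply_one, Complex.norm_natCast]))
  have h3 : 2 * (e : ℝ) + 1 = p := by exact_mod_cast D.he
  have := lt_of_le_of_ne hle hne
  linarith

open scoped Classical in
/-- The principal part of the sum. -/
theorem principal_value (D : Half M p m K e x σ H φ) (B : Blk p K e x σ μ₁)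
    (h1 : Over ((oneChar G : IrrCharacter G) : G → ℂ) μ₁) (P : Princ p K e x σ φ μ₁ B) {g : G}
    (hg : ¬ p ∣ orderOf g) (i : ℕ) :
    ((p : ℂ) ^ 2 - 1) * partSum μ₁ x (x ^ K ^ i) g =
      ((p : ℂ) ^ 2 - p) + 2 * (p : ℂ) * ((φ : G → ℂ) g * conj ((φ : G → ℂ) g)) +
        ((B.W : ℂ) - p) * conj ((B.θ : G → ℂ) g) +
        ((B.θ : G → ℂ) x * conj ((B.θ : G → ℂ) (x ^ K ^ i)) +
          (gal σ B.θ : G → ℂ) x * conj ((gal σ B.θ : G → ℂ) (x ^ K ^ i))) *
          conj ((B.θ : G → ℂ) g) * (((p : ℂ) ^ 2 - 1) / (charDegree (B.θ : G → ℂ) : ℂ)) := by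
  obtain ⟨h1X, hε1⟩ := B.one_mem h1
  have hone : ((oneChar G : IrrCharacter G) : G → ℂ) g = 1 := rfl
  have hd1 : charDegree ((oneChar G : IrrCharacter G) : G → ℂ) = 1 := by
    simp [coe_oneChar, charDegree]
  have hs1 := P.sums g hg
  have hs2 := B.relation g hg
  rw [← Finset.add_sum_erase _ _ h1X] at hs1 hs2
  rw [hone] at hs1 hs2
  rw [hε1, Int.cast_one, one_mul] at hs2
  have hS := sum_div_deg (p := p) (B.X.erase (oneChar G)) B.ε (by have := D.hp5; omega)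
    (fun ψ h => B.sign ψ (Finset.mem_of_mem_erase h))
    (fun ψ h => P.degs ψ (Finset.mem_of_mem_erase h) (Finset.ne_of_mem_erase h)) g
  have c1 := congrArg conj hs1
  have c2 := congrArg conj hs2
  simp only [map_add, map_one, map_zero, map_mul, map_ofNat, map_intCast, Complex.conj_conj]
    at c1 c2
  rw [B.partSum_eq D hg i, ← Finset.add_sum_erase _ _ h1X, hone, map_one, hd1, Nat.cast_one,
    div_one]
  linear_combination hS + (p : ℂ) * c1 - c2

open scoped Classical in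
/-- The part over the character of `φ`. -/
theorem lam_value (D : Half M p m K e x σ H φ) (B₁ : Blk p K e x σ μ₁) (B : Blk p K e x σ μ)
    (hφ : Over (φ : G → ℂ) μ) (hd : ∀ ψ ∈ B.X, (charDegree (ψ : G → ℂ) : ℤ) = p + B.ε ψ)
    {g : G} (hg : ¬ p ∣ orderOf g)
    (hs1 : (∑ ψ ∈ B.X, (ψ : G → ℂ) g) + (φ : G → ℂ) g =
      2 * ((φ : G → ℂ) g * conj ((B₁.θ : G → ℂ) g)))
    (hs2 : ∑ ψ ∈ B.X, (B.ε ψ : ℂ) * (ψ : G → ℂ) g = (φ : G → ℂ) g) (i : ℕ) :
    ((p : ℂ) ^ 2 - 1) * partSum μ x (x ^ K ^ i) g =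
      conj ((φ : G → ℂ) g) * (2 * (p : ℂ) * (B₁.θ : G → ℂ) g - p - 1 + 2 * ((p : ℂ) + 1) *
        ((B.θ : G → ℂ) x * conj ((B.θ : G → ℂ) (x ^ K ^ i)) +
          (gal σ B.θ : G → ℂ) x * conj ((gal σ B.θ : G → ℂ) (x ^ K ^ i)))) := by
  have hreg1 : ¬ p ∣ orderOf (1 : G) := by rw [orderOf_one]; exact hp.out.not_dvd_one
  have hθ : ∀ y : G, ¬ p ∣ orderOf y → (B.θ : G → ℂ) y = (φ : G → ℂ) y := fun y hy => by
    rcases (B.phi_mem D hφ).1 with ⟨q1, -⟩ | ⟨-, q2⟩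
    · rw [q1]
    · rw [← B.gal_reg y hy, q2]
  have hdθ : (charDegree (B.θ : G → ℂ) : ℂ) = e := by
    rw [← apply_one_eq_deg, hθ 1 hreg1, D.apply_one]
  have hS := sum_div_deg (p := p) B.X B.ε (by have := D.hp5; omega) B.sign hd g
  have c1 := congrArg conj hs1
  have c2 := congrArg conj hs2
  simp only [map_add, map_mul, map_ofNat, map_intCast, Complex.conj_conj, map_sum] at c1 c2
  rw [map_sum, map_sum] at hS
  simp only [map_mul, map_intCast] at hS
  rw [B.partSum_eq D hg i, hdθ, hθ g hg]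
  have he0 : (e : ℂ) ≠ 0 := Nat.cast_ne_zero.2 (by have := D.two_le; omega)
  have hdiv : ((p : ℂ) ^ 2 - 1) * (conj ((φ : G → ℂ) g) / (e : ℂ)) =
      2 * ((p : ℂ) + 1) * conj ((φ : G → ℂ) g) := by
    rw [← mul_div_assoc, div_eq_iff he0, ← D.e_cast]
    ring
  linear_combination hS + (p : ℂ) * c1 - c2 +
    ((B.θ : G → ℂ) x * conj ((B.θ : G → ℂ) (x ^ K ^ i)) +
      (gal σ B.θ : G → ℂ) x * conj ((gal σ B.θ : G → ℂ) (x ^ K ^ i))) * hdiv

/-- The bound on the values at regular elements outside the centre. -/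
theorem norm_le_one (D : Half M p m K e x σ H φ) (B : Blk p K e x σ μ₁)
    (h1 : Over ((oneChar G : IrrCharacter G) : G → ℂ) μ₁) {g : G} (hg : ¬ p ∣ orderOf g)
    (hgc : g ∉ Subgroup.center G) : ‖(φ : G → ℂ) g‖ ≤ 1 := by
  classical
  haveI : Fintype (Subgroup.center G) := Fintype.ofFinite _
  have P := D.princ B h1
  have hZ : (0 : ℝ) < Nat.card (Subgroup.center G) := by exact_mod_cast Nat.card_pos
  have hp5 : (5 : ℝ) ≤ p := by exact_mod_cast D.hp5
  have hpp : (0 : ℝ) < (p : ℝ) ^ 2 - 1 := by nlinarith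
  set s := ‖(φ : G → ℂ) g‖ with hs
  have hff : (φ : G → ℂ) g * conj ((φ : G → ℂ) g) = ((s ^ 2 : ℝ) : ℂ) := by
    rw [Complex.mul_conj', hs]; push_cast; ring
  -- the principal part is real and non-negative
  have hpos : ∀ i : ℕ, ∃ r : ℝ, 0 ≤ r ∧ partSum μ₁ x (x ^ K ^ i) g = (r : ℂ) ∧
      ∀ {μ : G → ℂ}, Blk p K e x σ μ → ‖partSum μ x (x ^ K ^ i) g‖ ≤ r := by
    intro i
    choose r hr0 hr using fun z : Subgroup.center G => classSum_nonneg x (x ^ K ^ i) (g * z)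
    refine ⟨(∑ z, r z) / Nat.card (Subgroup.center G),
      div_nonneg (Finset.sum_nonneg fun z _ => hr0 z) hZ.le, ?_, fun {μ} B' => ?_⟩
    · have h := B.card_mul_partSum x (x ^ K ^ i) g
      rw [Finset.sum_congr rfl (g := fun z => ((r z : ℝ) : ℂ)) fun z _ => by
        rw [hr z, B.mu_one h1 z.2, one_mul]] at h
      push_cast
      rw [eq_div_iff (Nat.cast_ne_zero.2 Nat.card_pos.ne'), mul_comm, h]
    · have h := congrArg (‖·‖) (B'.card_mul_partSum x (x ^ K ^ i) g)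
      simp only [norm_mul, Complex.norm_natCast] at h
      rw [le_div_iff₀ hZ, mul_comm, h]
      refine (norm_sum_le _ _).trans (Finset.sum_le_sum fun z _ => ?_)
      rw [hr z, norm_mul, B'.mu_norm z.2, one_mul, Complex.norm_real, Real.norm_eq_abs,
        abs_of_nonneg (hr0 z)]
  obtain ⟨r₀, hr₀, he₀, hb₀⟩ := hpos 0
  obtain ⟨r₁, hr₁, he₁, hb₁⟩ := hpos 1
  have hv0 := D.principal_value B h1 P hg 0
  have hv1 := D.principal_value B h1 P hg 1
  rw [he₀] at hv0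
  rw [he₁] at hv1
  rw [pow_zero, pow_one, B.Y_norm, hff] at hv0
  rw [pow_one, B.Y_cross, hff] at hv1
  have hec := D.e_cast
  have he0 : (e : ℂ) ≠ 0 := Nat.cast_ne_zero.2 (by have := D.two_le; omega)
  have he1 : (e : ℂ) + 1 ≠ 0 := by exact_mod_cast Nat.succ_ne_zero e
  set t := (B.θ : G → ℂ) g with ht
  by_cases hcz : Subgroup.center G = ⊥
  · -- trivial centre
    have hφ : Over (φ : G → ℂ) μ₁ := fun z hz y => by
      rw [B.mu_one h1 hz, one_mul]
      rw [hcz, Subgroup.mem_bot] at hz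
      rw [hz, mul_one]
    obtain ⟨hpair, hW⟩ := B.phi_mem D hφ
    have hdθ : (charDegree (B.θ : G → ℂ) : ℂ) = e := by
      rcases P.degθ with h | h
      · rw [hW] at h; norm_num at h
      · rw [h.2]
    have htφ : t = (φ : G → ℂ) g := by
      rcases hpair with ⟨q1, -⟩ | ⟨-, q2⟩
      · rw [ht, q1]
      · rw [ht, ← B.gal_reg g hg, q2]
    rw [hdθ, hW] at hv0 hv1
    push_cast at hv0 hv1
    have hA0 : ((p : ℂ) ^ 2 - p + 2 * p * ((s : ℂ)) ^ 2) + (p * ((p : ℂ) + 1)) * conj t =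
        ((((p : ℝ) ^ 2 - 1) * r₀ : ℝ) : ℂ) := by
      push_cast
      rw [hv0, ← hec]
      field_simp
      ring
    have hA1 : ((p : ℂ) ^ 2 - p + 2 * p * ((s : ℂ)) ^ 2) + (-(p * ((p : ℂ) + 1))) * conj t =
        ((((p : ℝ) ^ 2 - 1) * r₁ : ℝ) : ℂ) := by
      push_cast
      rw [hv1, ← hec]
      field_simp
      ring
    have hT : ∃ τ : ℝ, t = (τ : ℂ) := by
      refine ⟨t.re, Complex.ext rfl ?_⟩
      have h := im_eq_zero_of_eq (by simp) (by simp; refine ⟨hp.out.ne_zero, ?_⟩; intro hh; linarith) (by simp [pow_two]) hA0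
      simpa using h
    obtain ⟨τ, hτ⟩ := hT
    rw [hτ, Complex.conj_ofReal] at hA0 hA1
    have k0 : (p : ℝ) ^ 2 - p + 2 * p * s ^ 2 + p * ((p : ℝ) + 1) * τ =
        ((p : ℝ) ^ 2 - 1) * r₀ := by exact_mod_cast hA0
    have k1 : (p : ℝ) ^ 2 - p + 2 * p * s ^ 2 + -(p * ((p : ℝ) + 1)) * τ =
        ((p : ℝ) ^ 2 - 1) * r₁ := by exact_mod_cast hA1
    have hsτ : s = |τ| := by
      rw [hs, ← htφ, hτ, Complex.norm_real, Real.norm_eq_abs]
    rw [hsτ, sq_abs] at k0 k1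
    rw [hsτ]
    refine le_one_of_ineq_real (p := (p : ℝ)) (by rw [← hsτ]; exact D.norm_lt hgc) ?_ ?_
    · refine nonneg_of_mul_nonneg_right (b := _) (a := (p : ℝ)) ?_ (by linarith)
      nlinarith [mul_nonneg hpp.le hr₀]
    · refine nonneg_of_mul_nonneg_right (b := _) (a := (p : ℝ)) ?_ (by linarith)
      nlinarith [mul_nonneg hpp.le hr₁]
  · -- nontrivial centre
    obtain ⟨μ, hφ, ⟨B'⟩⟩ := D.exists_blk φ (by
      rw [D.hdeg]; intro h; have := Nat.le_of_dvd (by have := D.two_le; omega) h; have := D.he; omega)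
    obtain ⟨hW, hd, hsums⟩ := D.lam B P B' hφ hcz
    obtain ⟨hs1, hs2⟩ := hsums g hg
    have hdθ : (charDegree (B.θ : G → ℂ) : ℂ) = (e : ℂ) + 1 := by
      rcases P.degθ with h | h
      · rw [h.2]; push_cast; ring
      · rw [hW] at h; norm_num at h
    rw [hdθ, hW] at hv0 hv1
    push_cast at hv0 hv1
    have hA0 : ((p : ℂ) ^ 2 - p + 2 * p * ((s : ℂ)) ^ 2) + (p * ((p : ℂ) - 1)) * conj t =
        ((((p : ℝ) ^ 2 - 1) * r₀ : ℝ) : ℂ) := by
      push_cast
      rw [hv0, ← hec]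
      field_simp
      ring
    have hA1 : ((p : ℂ) ^ 2 - p + 2 * p * ((s : ℂ)) ^ 2) + (-(p * ((p : ℂ) - 1))) * conj t =
        ((((p : ℝ) ^ 2 - 1) * r₁ : ℝ) : ℂ) := by
      push_cast
      rw [hv1, ← hec]
      field_simp
      ring
    have hT : ∃ τ : ℝ, t = (τ : ℂ) := by
      refine ⟨t.re, Complex.ext rfl ?_⟩
      have h := im_eq_zero_of_eq (by simp) (by simp; refine ⟨hp.out.ne_zero, ?_⟩; intro hh; linarith) (by simp [pow_two]) hA0
      simpa using h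
    obtain ⟨τ, hτ⟩ := hT
    rw [hτ, Complex.conj_ofReal] at hA0 hA1
    have k0 : (p : ℝ) ^ 2 - p + 2 * p * s ^ 2 + p * ((p : ℝ) - 1) * τ =
        ((p : ℝ) ^ 2 - 1) * r₀ := by exact_mod_cast hA0
    have k1 : (p : ℝ) ^ 2 - p + 2 * p * s ^ 2 + -(p * ((p : ℝ) - 1)) * τ =
        ((p : ℝ) ^ 2 - 1) * r₁ := by exact_mod_cast hA1
    have hw0 := D.lam_value B B' hφ hd hg hs1 hs2 0
    have hw1 := D.lam_value B B' hφ hd hg hs1 hs2 1
    rw [pow_zero, pow_one, B'.Y_norm, show (B.θ : G → ℂ) g = (τ : ℂ) from hτ] at hw0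
    rw [pow_one, B'.Y_cross, show (B.θ : G → ℂ) g = (τ : ℂ) from hτ] at hw1
    have hn : ‖(p : ℂ) ^ 2 - 1‖ = (p : ℝ) ^ 2 - 1 := by
      rw [show ((p : ℂ) ^ 2 - 1) = (((p : ℝ) ^ 2 - 1 : ℝ) : ℂ) by push_cast; ring, Complex.norm_real,
        Real.norm_eq_abs, abs_of_pos hpp]
    have hep : (e : ℝ) = ((p : ℝ) - 1) / 2 := by
      have h3 : 2 * (e : ℝ) + 1 = p := by exact_mod_cast D.he
      linarith
    have key : ∀ (q r : ℝ) (T : ℂ), ((p : ℂ) ^ 2 - 1) * T = conj ((φ : G → ℂ) g) * (q : ℂ) →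
        ‖T‖ ≤ r → s * |q| ≤ ((p : ℝ) ^ 2 - 1) * r := fun q r T h hT => by
      have h' := congrArg (‖·‖) h
      simp only [norm_mul, hn, Complex.norm_conj, Complex.norm_real, Real.norm_eq_abs] at h'
      rw [← h']
      exact mul_le_mul_of_nonneg_left hT hpp.le
    have q0 := key ((p : ℝ) * (2 * τ + p + 1)) r₀ _ (by
      rw [hw0]; congr 1; push_cast; rw [← hec]; ring) (by
      have := hb₀ B'; rwa [pow_zero, pow_one] at this)
    have q1 := key ((p : ℝ) * (2 * τ - p - 1)) r₁ _ (by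
      rw [hw1]; congr 1; push_cast; rw [← hec]; ring) (by
      have := hb₁ B'; rwa [pow_one] at this)
    refine le_one_of_ineq (p := (p : ℝ)) (t := τ) (norm_nonneg _) (D.norm_lt hgc) ?_ ?_
    · refine le_of_mul_le_mul_left ?_ (show (0 : ℝ) < p by linarith)
      nlinarith [mul_le_mul_of_nonneg_left (le_abs_self ((p : ℝ) * (2 * τ + p + 1)))
        (norm_nonneg ((φ : G → ℂ) g))]
    · refine le_of_mul_le_mul_left ?_ (show (0 : ℝ) < p by linarith)
      nlinarith [mul_le_mul_of_nonneg_left (neg_le_abs ((p : ℝ) * (2 * τ - p - 1)))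
        (norm_nonneg ((φ : G → ℂ) g))]

end Half

end Cfsg.Agent.Blocks.HalfDegree
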