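import Cfsg.Agent.Blocks.HalfDegree.Shape
import Cfsg.Agent.Screen.BrauerP.Tools
import Cfsg.Agent.Core.Cores

/-!
A group generated by the conjugates of an element `x` of prime order `p`, `p` dividing the order
once, with a faithful irreducible character of degree `(p - 1) / 2`: the local structure at `x`.
-/

set_option autoImplicit false
set_option linter.unusedSectionVars false
set_option linter.style.haveILetI false

namespace Cfsg.Agent.Blocks.HalfDegree

open Cfsg Cfsg.Agent Cfsg.Agent.Blocks Cfsg.Agent.BlockChar Cfsg.Agent.Chars2.Cyc Function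
  Screen.BrauerP
open scoped ComplexConjugate

universe u

variable {G : Type u} [Group G]

/-- A central element acts on an irreducible character by a root of unity. -/
theorem exists_scalar [Finite G] {χ : G → ℂ} (hχ : IsIrrCharacter G χ) {z : G}
    (hz : z ∈ Subgroup.center G) : ∃ w : ℂ, ‖w‖ = 1 ∧ ∀ g, χ (g * z) = w * χ g := by
  obtain ⟨n, ρ, hi, rfl⟩ := hχ
  haveI := hi
  obtain ⟨c, hc⟩ := Chars.scalar_of_commute ρ (ρ z) (fun g => by
    rw [← map_mul, ← map_mul, Subgroup.mem_center_iff.1 hz g])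
  refine ⟨c, ?_, fun g => ?_⟩
  · have h := (Chars.rep_norm_char_eq_iff ρ z).2 ⟨c, hc⟩
    rw [Representation.character, hc, map_smul, LinearMap.trace_one, norm_smul,
      Complex.norm_natCast] at h
    have hn : (0 : ℝ) < Module.finrank ℂ (Fin n → ℂ) := by
      exact_mod_cast Chars.finrank_pos_of_isIrreducible ρ
    exact (mul_eq_right₀ hn.ne').1 h
  · simp [Representation.character, map_mul, hc]

/-- Where a faithful character takes a value of the size of the degree the element is central. -/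
theorem mem_center_of_norm [Finite G] {χ : G → ℂ} (hχ : IsCharacter G χ)
    (hf : ∀ g, χ g = χ 1 → g = 1) {g : G} (h : ‖χ g‖ = ‖χ 1‖) : g ∈ Subgroup.center G := by
  obtain ⟨n, ρ, rfl⟩ := hχ
  rw [Representation.char_one, Complex.norm_natCast] at h
  obtain ⟨c, hc⟩ := (Chars.rep_norm_char_eq_iff ρ g).1 h
  refine Subgroup.mem_center_iff.2 fun a => ?_
  have h1 : ρ (a * g * a⁻¹ * g⁻¹) = ρ 1 := by
    have e : ρ (a * g) = ρ (g * a) := by rw [map_mul, map_mul, hc]; simp
    rw [mul_assoc (a * g), map_mul, e, ← map_mul]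
    congr 1
    group
  have h2 : a * g * a⁻¹ * g⁻¹ = 1 := hf _ (by simp only [Representation.character, h1])
  rwa [mul_inv_eq_one, mul_inv_eq_iff_eq_mul] at h2

variable [Fintype G]

/-- The hypotheses. -/
structure Half (M : Ideal AlgInt) (p m K e : ℕ) (x : G) (σ : ℂ ≃+* ℂ) (H : Subgroup G)
    (φ : IrrCharacter G) : Prop where
  S : Once M p m K x σ H
  hp5 : 5 ≤ p
  he : 2 * e + 1 = p
  hdeg : charDegree (φ : G → ℂ) = e
  hfaith : ∀ g, (φ : G → ℂ) g = (φ : G → ℂ) 1 → g = 1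
  hgen : ∀ ψ : IrrCharacter G, (ψ : G → ℂ) x = (ψ : G → ℂ) 1 → ψ = oneChar G
  hall : ∀ D : Subgroup G, D.Normal → x ∈ D → ∀ y : G, y ∈ D
  hns : ‖(φ : G → ℂ) x‖ ≠ charDegree (φ : G → ℂ)

variable {p m K e : ℕ} [hp : Fact p.Prime] {M : Ideal AlgInt} [M.IsMaximal] {x : G}
  {σ : ℂ ≃+* ℂ} {H : Subgroup G} [Fintype H] {φ : IrrCharacter G}

namespace Half

theorem two_le (D : Half M p m K e x σ H φ) : 2 ≤ e := by have := D.hp5; have := D.he; omega

theorem e_cast (D : Half M p m K e x σ H φ) : 2 * (e : ℂ) + 1 = p := by exact_mod_cast D.he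

theorem apply_one (D : Half M p m K e x σ H φ) : (φ : G → ℂ) 1 = (e : ℂ) := by
  rw [apply_one_eq_deg, D.hdeg]

theorem not_conj_K (D : Half M p m K e x σ H φ) : ¬ IsConj (x ^ K) x := fun hc => by
  refine D.S.false_of_fixed_half (by rw [D.hdeg, D.he]) D.hns fun j => ?_
  obtain ⟨c, hc⟩ := isConj_iff.1 hc
  rw [mul_comm, pow_mul, ← Chars.isClassFunction_irr φ ((x ^ K) ^ j) c, ← conj_pow, hc]

theorem eig_zero (D : Half M p m K e x σ H φ) : D.S.eigMult φ 0 = 0 :=
  (D.S.half_char_shape D.not_conj_K (by rw [D.hdeg, D.he]) D.hns).1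

theorem eig_disj (D : Half M p m K e x σ H φ) :
    ∀ i : ZMod p, D.S.eigMult φ i ≠ 0 → D.S.eigMult φ ((K : ZMod p) * i) = 0 :=
  (D.S.half_char_shape D.not_conj_K (by rw [D.hdeg, D.he]) D.hns).2.1

theorem exists_orbit (D : Half M p m K e x σ H φ) :
    ∃ e₁ : ZMod p, e₁ ≠ 0 ∧ D.S.eigMult φ e₁ ≠ 0 ∧ ∀ i : ZMod p, D.S.eigMult φ i ≠ 0 →
      ∃ a : ℕ, IsConj (x ^ K ^ a) x ∧ i = (K : ZMod p) ^ a * e₁ :=
  (D.S.half_char_shape D.not_conj_K (by rw [D.hdeg, D.he]) D.hns).2.2

theorem sum_mult_self (D : Half M p m K e x σ H φ) :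
    ∑ j : ZMod p, (φ : G → ℂ) (x ^ j.val) * conj ((φ : G → ℂ) (x ^ j.val)) =
      (p : ℂ) * ((∑ i : ZMod p, D.S.eigMult φ i * D.S.eigMult φ i : ℕ) : ℂ) := by
  have h := D.S.sum_values_mul φ 1
  simp only [mul_one, Nat.cast_one, one_mul, Finset.sum_ite_eq, Finset.mem_univ, if_true] at h
  exact h

open scoped Classical in
/-- A character agreeing with `φ` on the regular elements: the product with the conjugate of `φ`
has few eigenvalues one at `x`. -/
theorem prod_bound (D : Half M p m K e x σ H φ) (ψ : IrrCharacter G)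
    (hψ : ∀ g : G, ¬ p ∣ orderOf g → (ψ : G → ℂ) g = (φ : G → ℂ) g) {a : ℕ}
    (ha : ∑ j : ZMod p, (ψ : G → ℂ) (x ^ j.val) * conj ((φ : G → ℂ) (x ^ j.val)) = (p : ℂ) * a) :
    (p + 1) * a ≤ 2 * (e * e) + if ψ = φ then p - 1 else 0 := by
  have hchar : ∀ θ : IrrCharacter G,
      IsCharacter G fun g => (θ : G → ℂ) g * conj ((φ : G → ℂ) g) := fun θ =>
    Chars.isCharacter_mul (Chars.irr_isCharacter θ)
      (Chars.isCharacter_star (Chars.irr_isCharacter φ))
  choose mm hmm using fun (θ χ : IrrCharacter G) =>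
    Chars.exists_classInner_eq_nat (hchar θ) (Chars.irr_isCharacter χ)
  have hdec : ∀ (θ : IrrCharacter G) (g : G), (θ : G → ℂ) g * conj ((φ : G → ℂ) g) =
      ∑ χ, (mm θ χ : ℂ) * (χ : G → ℂ) g := fun θ g => by
    refine (congrFun (Chars.eq_sum_classInner
      (Chars.isClassFunction_of_isCharacter (hchar θ))) g).trans ?_
    rw [Finset.sum_apply]
    exact Finset.sum_congr rfl fun χ _ => by rw [Pi.smul_apply, smul_eq_mul, hmm θ χ]
  have hfix : ∀ (θ : IrrCharacter G) (b : ℕ),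
      ∑ j : ZMod p, (θ : G → ℂ) (x ^ j.val) * conj ((φ : G → ℂ) (x ^ j.val)) = (p : ℂ) * b →
      ∑ χ, mm θ χ * D.S.eigMult χ 0 = b := by
    intro θ b hb
    simp only [hdec] at hb
    rw [Finset.sum_comm] at hb
    simp only [← Finset.mul_sum, D.S.sum_values_pow] at hb
    apply Nat.cast_injective (R := ℂ)
    refine mul_left_cancel₀ (Nat.cast_ne_zero.2 hp.out.ne_zero : (p : ℂ) ≠ 0) ?_
    rw [← hb, Nat.cast_sum, Finset.mul_sum]
    exact Finset.sum_congr rfl fun χ _ => by push_cast; ring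
  have hA1 : ∀ χ, mm (gal σ φ) χ ≠ 0 → D.S.eigMult χ 0 = 0 := by
    have h : ∑ χ, mm (gal σ φ) χ * D.S.eigMult χ 0 = 0 := by
      refine hfix (gal σ φ) 0 ?_
      have h := D.S.sum_values_mul φ K
      simp only [Finset.sum_ite_eq, Finset.mem_univ, if_true] at h
      have hz : ∑ i : ZMod p, D.S.eigMult φ i * D.S.eigMult φ ((K : ZMod p) * i) = 0 := by
        refine Finset.sum_eq_zero fun i _ => ?_
        by_cases hi : D.S.eigMult φ i = 0
        · rw [hi, zero_mul]
        · rw [D.eig_disj i hi, mul_zero]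
      rw [hz] at h
      rw [← h]
      refine Finset.sum_congr rfl fun j _ => ?_
      have h1 := D.S.gal_value φ 1 (x ^ j.val)
      rw [iterate_one, pow_one, ← pow_mul] at h1
      rw [h1]
    intro χ hχ
    exact (mul_eq_zero.1 ((Finset.sum_eq_zero_iff.1 h) χ (Finset.mem_univ χ))).resolve_left hχ
  have hreg : ∀ g : G, ¬ p ∣ orderOf g →
      ∑ χ, (((mm ψ χ : ℤ) - mm (gal σ φ) χ : ℤ) : ℂ) * (χ : G → ℂ) g = 0 := fun g hg => by
    have h1 := hdec (gal σ φ) g
    rw [gal_apply, D.S.map_reg D.S.hexp (Chars.irr_isCharacter φ) hg] at h1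
    have h2 := hdec ψ g
    rw [hψ g hg] at h2
    rw [h2] at h1
    push_cast
    simp only [sub_mul, Finset.sum_sub_distrib]
    rw [sub_eq_zero]
    exact h1
  have hdeg : ∑ χ, mm ψ χ * charDegree (χ : G → ℂ) = e * e := by
    have h1 := hdec ψ 1
    rw [hψ 1 (by rw [orderOf_one]; exact hp.out.not_dvd_one), D.apply_one, map_natCast,
      Finset.sum_congr rfl fun χ _ => by rw [apply_one_eq_deg χ]] at h1
    exact_mod_cast h1.symm
  have hprinc : mm ψ (oneChar G) = if ψ = φ then 1 else 0 := by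
    have h1 := hmm ψ (oneChar G)
    have h2 : classInner (fun g => (ψ : G → ℂ) g * conj ((φ : G → ℂ) g))
        ((oneChar G : IrrCharacter G) : G → ℂ) = classInner (ψ : G → ℂ) (φ : G → ℂ) := by
      simp [Chars.classInner_def, coe_oneChar]
    rw [h2, Chars.classInner_irrCharacter] at h1
    split_ifs with h
    · rw [if_pos h] at h1; exact_mod_cast h1.symm
    · rw [if_neg h] at h1; exact_mod_cast h1.symm
  have hone : D.S.eigMult (oneChar G) 0 = 1 := by
    have h1 := D.S.sum_values_pow (oneChar G)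
    simp only [coe_oneChar, Finset.sum_const, Finset.card_univ, ZMod.card, nsmul_eq_mul,
      mul_one] at h1
    have h2 : (p : ℂ) * 1 = (p : ℂ) * D.S.eigMult (oneChar G) 0 := by rw [mul_one]; exact h1
    exact_mod_cast (mul_left_cancel₀ (Nat.cast_ne_zero.2 hp.out.ne_zero) h2).symm
  have hdeg1 : charDegree ((oneChar G : IrrCharacter G) : G → ℂ) = 1 := by
    simp [coe_oneChar, charDegree]
  rw [← hfix ψ a ha, ← hdeg, Finset.mul_sum, Finset.mul_sum,
    ← Finset.add_sum_erase _ _ (Finset.mem_univ (oneChar G)),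
    ← Finset.add_sum_erase (f := fun χ => 2 * (mm ψ χ * charDegree (χ : G → ℂ))) _
      (Finset.mem_univ (oneChar G))]
  have h1 : ∑ χ ∈ Finset.univ.erase (oneChar G), (p + 1) * (mm ψ χ * D.S.eigMult χ 0) ≤
      ∑ χ ∈ Finset.univ.erase (oneChar G), 2 * (mm ψ χ * charDegree (χ : G → ℂ)) := by
    refine Finset.sum_le_sum fun χ hχ => ?_
    rcases Nat.eq_zero_or_pos (mm ψ χ) with h0 | h0
    · rw [h0]; simp
    · have := D.S.constituent_bound D.not_conj_K D.hgen (mm ψ) (mm (gal σ φ)) hreg hA1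
        (Finset.mem_erase.1 hχ).1 h0.ne'
      calc (p + 1) * (mm ψ χ * D.S.eigMult χ 0) = mm ψ χ * ((p + 1) * D.S.eigMult χ 0) := by ring
        _ ≤ mm ψ χ * (2 * charDegree (χ : G → ℂ)) := Nat.mul_le_mul_left _ this
        _ = _ := by ring
  rw [hprinc, hone, hdeg1]
  have := hp.out.two_le
  split_ifs <;> omega

/-- The eigenvalues at `x` are simple. -/
theorem eig_sq (D : Half M p m K e x σ H φ) :
    (∀ i : ZMod p, D.S.eigMult φ i ≤ 1) ∧
      ∑ i : ZMod p, D.S.eigMult φ i * D.S.eigMult φ i = e := by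
  classical
  have h := D.prod_bound φ (fun _ _ => rfl) D.sum_mult_self
  rw [if_pos rfl] at h
  set A := ∑ i : ZMod p, D.S.eigMult φ i * D.S.eigMult φ i
  have hA : A ≤ e := by
    have := D.he
    by_contra hlt
    have h1 : (p + 1) * (e + 1) ≤ (p + 1) * A := Nat.mul_le_mul_left _ (by omega)
    have h2 : (p + 1) * (e + 1) = 2 * (e * e) + 4 * e + 2 := by rw [← D.he]; ring
    omega
  have hle : ∀ i ∈ (Finset.univ : Finset (ZMod p)),
      D.S.eigMult φ i ≤ D.S.eigMult φ i * D.S.eigMult φ i := fun i _ => Nat.le_mul_self _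
  have hs : ∑ i : ZMod p, D.S.eigMult φ i = e := (D.S.degree_eig φ).symm.trans D.hdeg
  have hge : e ≤ A := hs ▸ Finset.sum_le_sum hle
  refine ⟨fun i => ?_, le_antisymm hA hge⟩
  have h1 := (Finset.sum_eq_sum_iff_of_le hle).1 (by omega) i (Finset.mem_univ i)
  by_contra hlt
  have : 2 * D.S.eigMult φ i ≤ D.S.eigMult φ i * D.S.eigMult φ i :=
    Nat.mul_le_mul_right _ (by omega)
  omega

/-- The exponents occurring in `φ`. -/
noncomputable def supp (D : Half M p m K e x σ H φ) : Finset (ZMod p) :=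
  Finset.univ.filter fun i => D.S.eigMult φ i ≠ 0

theorem mem_supp (D : Half M p m K e x σ H φ) {i : ZMod p} :
    i ∈ D.supp ↔ D.S.eigMult φ i ≠ 0 := by simp [supp]

theorem eig_supp (D : Half M p m K e x σ H φ) {i : ZMod p} (hi : i ∈ D.supp) :
    D.S.eigMult φ i = 1 := by
  have := D.eig_sq.1 i; have := D.mem_supp.1 hi; omega

theorem card_supp (D : Half M p m K e x σ H φ) : D.supp.card = e := by
  refine Eq.trans ?_ ((D.S.degree_eig φ).symm.trans D.hdeg)
  rw [← Finset.sum_filter_ne_zero, Finset.card_eq_sum_ones]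
  exact Finset.sum_congr rfl fun i hi => (D.eig_supp hi).symm

theorem supp_union (D : Half M p m K e x σ H φ) :
    Disjoint D.supp (D.supp.image fun i => (K : ZMod p) * i) ∧
      D.supp ∪ D.supp.image (fun i => (K : ZMod p) * i) = Finset.univ.erase 0 := by
  classical
  have hd : Disjoint D.supp (D.supp.image fun i => (K : ZMod p) * i) := by
    rw [Finset.disjoint_left]
    intro i hi hi'
    obtain ⟨k, hk, rfl⟩ := Finset.mem_image.1 hi'
    exact D.mem_supp.1 hi (D.eig_disj k (D.mem_supp.1 hk))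
  refine ⟨hd, Finset.eq_of_subset_of_card_le (fun i hi => Finset.mem_erase.2 ⟨?_, Finset.mem_univ i⟩)
    ?_⟩
  · intro h0
    subst h0
    rcases Finset.mem_union.1 hi with h | h
    · exact D.mem_supp.1 h D.eig_zero
    · obtain ⟨k, hk, hk0⟩ := Finset.mem_image.1 h
      rcases mul_eq_zero.1 hk0 with h1 | h1
      · exact D.S.K_ne_zero h1
      · exact D.mem_supp.1 hk (h1 ▸ D.eig_zero)
  · rw [Finset.card_union_of_disjoint hd, Finset.card_image_of_injective _
      (mul_right_injective₀ D.S.K_ne_zero), D.card_supp,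
      Finset.card_erase_of_mem (Finset.mem_univ _), Finset.card_univ, ZMod.card]
    have := D.he
    omega

theorem supp_K_sq (D : Half M p m K e x σ H φ) {i : ZMod p} (hi : i ∈ D.supp) :
    (K : ZMod p) ^ 2 * i ∈ D.supp := by
  classical
  have hi0 : i ≠ 0 := fun h => D.mem_supp.1 hi (h ▸ D.eig_zero)
  have hmem : (K : ZMod p) ^ 2 * i ∈ D.supp ∪ D.supp.image (fun i => (K : ZMod p) * i) := by
    rw [D.supp_union.2]
    exact Finset.mem_erase.2 ⟨mul_ne_zero (pow_ne_zero _ D.S.K_ne_zero) hi0, Finset.mem_univ _⟩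
  rcases Finset.mem_union.1 hmem with h | h
  · exact h
  · obtain ⟨k, hk, hk'⟩ := Finset.mem_image.1 h
    rw [sq, mul_assoc] at hk'
    rw [mul_left_cancel₀ D.S.K_ne_zero hk'] at hk
    exact absurd (D.eig_disj i (D.mem_supp.1 hi)) (D.mem_supp.1 hk)

theorem conj_K_sq (D : Half M p m K e x σ H φ) : IsConj (x ^ K ^ 2) x := by
  obtain ⟨e₁, he₁, hμ, hall⟩ := D.exists_orbit
  obtain ⟨a, ha, hae⟩ := hall _ (D.mem_supp.1 (D.supp_K_sq (D.mem_supp.2 hμ)))
  have h1 := mul_right_cancel₀ he₁ hae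
  have h2 : x ^ K ^ 2 = x ^ K ^ a := by
    rw [D.S.pow_eq_pow_iff']
    push_cast
    exact h1
  exact h2 ▸ ha

/-- The automorphism squared fixes `φ`. -/
theorem gal_gal (D : Half M p m K e x σ H φ) : gal σ (gal σ φ) = φ := by
  by_contra hne
  obtain ⟨c, hc⟩ := isConj_iff.1 D.conj_K_sq
  have hv : ∀ j : ℕ, (gal σ (gal σ φ) : G → ℂ) (x ^ j) = (φ : G → ℂ) (x ^ j) := fun j => by
    rw [show gal σ (gal σ φ) = (gal σ)^[2] φ from rfl, D.S.gal_value, ← pow_mul, mul_comm,
      pow_mul, ← Chars.isClassFunction_irr φ ((x ^ K ^ 2) ^ j) c, ← conj_pow, hc]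
  have h := D.prod_bound (gal σ (gal σ φ)) (fun g hg => by
    rw [show gal σ (gal σ φ) = (gal σ)^[2] φ from rfl, D.S.gal_reg φ 2 hg]) (a := e) (by
    rw [Finset.sum_congr rfl fun (j : ZMod p) _ => by rw [hv j.val], D.sum_mult_self, D.eig_sq.2])
  rw [if_neg hne] at h
  have := D.two_le
  rw [← D.he] at h
  nlinarith

/-- The sum over the powers of `x` of the squares of the absolute values. -/
theorem sum_values_sq (D : Half M p m K e x σ H φ) :
    ∑ j : ZMod p, (φ : G → ℂ) (x ^ j.val) * conj ((φ : G → ℂ) (x ^ j.val)) = (p : ℂ) * e := by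
  rw [D.sum_mult_self, D.eig_sq.2]

/-- The two conjugate characters add up to `-1` on the powers of `x`. -/
theorem add_gal_value (D : Half M p m K e x σ H φ) {j : ℕ} (hj : ¬ p ∣ j) :
    (φ : G → ℂ) (x ^ j) + (gal σ φ : G → ℂ) (x ^ j) = -1 := by
  classical
  have hval : ∀ n : ℕ, (φ : G → ℂ) (x ^ n) = ∑ i ∈ D.supp, zc p ((n : ZMod p) * i) := fun n => by
    rw [D.S.value_eig φ n]
    symm
    rw [supp, Finset.sum_filter]
    refine Finset.sum_congr rfl fun i _ => ?_
    split_ifs with h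
    · rw [D.eig_supp (D.mem_supp.2 h), Nat.cast_one, one_mul]
    · rw [not_not.1 h, Nat.cast_zero, zero_mul]
  have hg := D.S.gal_value φ 1 (x ^ j)
  rw [iterate_one, pow_one, ← pow_mul] at hg
  rw [hg, hval, hval, Nat.cast_mul]
  have h1 : ∑ i ∈ D.supp, zc p ((j : ZMod p) * (K : ZMod p) * i) =
      ∑ i ∈ D.supp.image (fun i => (K : ZMod p) * i), zc p ((j : ZMod p) * i) := by
    rw [Finset.sum_image fun a _ b _ h => mul_left_cancel₀ D.S.K_ne_zero h]
    exact Finset.sum_congr rfl fun i _ => by rw [mul_assoc]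
  rw [h1, ← Finset.sum_union D.supp_union.1, D.supp_union.2]
  have h2 := Finset.add_sum_erase Finset.univ (fun i => zc p ((j : ZMod p) * i))
    (Finset.mem_univ (0 : ZMod p))
  simp only [mul_zero, AddChar.map_zero_eq_one] at h2
  have h3 : ∑ i : ZMod p, zc p ((j : ZMod p) * i) = 0 := by
    have h4 := zc_sum (p := p) (j : ZMod p)
    rw [if_neg fun h => hj ((ZMod.natCast_eq_zero_iff j p).1 h)] at h4
    rw [← h4]
    exact Finset.sum_congr rfl fun i _ => by rw [mul_comm]
  linear_combination h2 + h3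

/-- The regular elements centralising `x` are central. -/
theorem mem_center_of_regular (D : Half M p m K e x σ H φ) (c : H) (hc : ¬ p ∣ orderOf c) :
    (c : G) ∈ Subgroup.center G := by
  classical
  set F : ZMod p → ℂ := fun i => ∑ θ ∈ Finset.univ.filter (fun θ : IrrCharacter H => D.S.expo θ = i),
    (mult φ θ : ℂ) * (θ : H → ℂ) c with hF
  have hval : ∀ j : ℕ, (φ : G → ℂ) (x ^ j * (c : G)) =
      ∑ i : ZMod p, zc p ((j : ZMod p) * i) * F i := fun j => by
    have h := apply_eq_sum_mult φ ((⟨x, D.S.mem⟩ : H) ^ j * c)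
    rw [Subgroup.coe_mul, Subgroup.coe_pow] at h
    rw [show (φ : G → ℂ) (x ^ j * (c : G)) = _ from h,
      ← Finset.sum_fiberwise Finset.univ (fun θ => D.S.expo θ)]
    refine Finset.sum_congr rfl fun i _ => ?_
    rw [hF, Finset.mul_sum]
    refine Finset.sum_congr rfl fun θ hθ => ?_
    rw [D.S.expo_pow, (Finset.mem_filter.1 hθ).2]
    ring
  have hinv : ∀ k : ZMod p,
      ∑ j : ZMod p, zc p (-(j * k)) * (φ : G → ℂ) (x ^ j.val * (c : G)) = (p : ℂ) * F k := fun k => by
    simp only [hval, ZMod.natCast_rightInverse _, Finset.mul_sum, ← mul_assoc,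
      ← AddChar.map_add_eq_mul]
    rw [Finset.sum_comm]
    simp only [← Finset.sum_mul, neg_add_eq_sub, ← mul_sub, zc_sum, sub_eq_zero, ite_mul, zero_mul,
      Finset.sum_ite_eq', Finset.mem_univ, if_true]
  have hrot : ∀ i : ZMod p, F ((K : ZMod p) ^ 2 * i) = F i := fun i => by
    refine mul_left_cancel₀ (Nat.cast_ne_zero.2 hp.out.ne_zero : (p : ℂ) ≠ 0) ?_
    rw [← hinv, Finset.sum_congr rfl (g := fun j : ZMod p => zc p (-(j * ((K : ZMod p) ^ 2 * i))) *
      ∑ l : ZMod p, zc p (j * ((K : ZMod p) ^ 2 * l)) * F l) fun j _ => by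
      congr 1
      have h := congrArg (fun θ : IrrCharacter G => (θ : G → ℂ) (x ^ j.val * (c : G))) D.gal_gal
      rw [← h, show gal σ (gal σ φ) = (gal σ)^[2] φ from rfl, D.S.gal_value,
        D.S.mul_pow_reg hc, hval]
      refine Finset.sum_congr rfl fun l _ => ?_
      rw [Nat.cast_mul, ZMod.natCast_rightInverse j, Nat.cast_pow, mul_assoc]]
    simp only [Finset.mul_sum, ← mul_assoc, ← AddChar.map_add_eq_mul]
    rw [Finset.sum_comm]
    simp only [← Finset.sum_mul, mul_assoc, neg_add_eq_sub, ← mul_sub, zc_sum, mul_eq_zero,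
      pow_ne_zero 2 D.S.K_ne_zero, sub_eq_zero, false_or, ite_mul, zero_mul, Finset.sum_ite_eq',
      Finset.mem_univ, if_true]
  obtain ⟨e₁, he₁, hμ, -⟩ := D.exists_orbit
  have horb : (Finset.range e).image (fun r => ((K : ZMod p) ^ 2) ^ r * e₁) = D.supp := by
    refine Finset.eq_of_subset_of_card_le (fun i hi => ?_) ?_
    · obtain ⟨r, -, rfl⟩ := Finset.mem_image.1 hi
      clear hi
      induction r with
      | zero => rw [pow_zero, one_mul]; exact D.mem_supp.2 hμ
      | succ r ih => rw [pow_succ', mul_assoc]; exact D.supp_K_sq ih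
    · rw [D.card_supp, Finset.card_image_of_injOn, Finset.card_range]
      intro a ha b hb h
      have h1 := mul_right_cancel₀ he₁ h
      rw [← pow_mul, ← pow_mul] at h1
      have := D.he
      have h2 := pow_injOn_Iio_orderOf (x := (K : ZMod p))
        (show 2 * a ∈ Set.Iio _ by rw [D.S.ord]; exact Set.mem_Iio.2 (by
          have := Finset.mem_range.1 ha; omega))
        (show 2 * b ∈ Set.Iio _ by rw [D.S.ord]; exact Set.mem_Iio.2 (by
          have := Finset.mem_range.1 hb; omega)) h1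
      omega
  have hconst : ∀ i ∈ D.supp, F i = F e₁ := fun i hi => by
    rw [← horb] at hi
    obtain ⟨r, -, rfl⟩ := Finset.mem_image.1 hi
    clear hi
    induction r with
    | zero => rw [pow_zero, one_mul]
    | succ r ih => rw [pow_succ', mul_assoc, hrot, ih]
  have hzero : ∀ i, D.S.eigMult φ i = 0 → F i = 0 := fun i hi => by
    refine Finset.sum_eq_zero fun θ hθ => ?_
    have h := Finset.sum_eq_zero_iff.1 hi θ hθ
    rw [(mul_eq_zero.1 h).resolve_right (Blocks.charDegree_eq θ.2).2.ne', Nat.cast_zero, zero_mul]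
  have hnorm : ‖F e₁‖ = 1 := by
    have h1 := D.eig_supp (D.mem_supp.2 hμ)
    obtain ⟨θ, hθ, hθne⟩ := Finset.exists_ne_zero_of_sum_ne_zero (h1.trans_ne one_ne_zero)
    rw [Once.eigMult, ← Finset.add_sum_erase _ _ hθ] at h1
    have h2 : mult φ θ * charDegree (θ : H → ℂ) = 1 := by omega
    have h3 : F e₁ = (θ : H → ℂ) c := by
      rw [hF]
      dsimp only
      rw [Finset.sum_eq_single θ, Nat.eq_one_of_mul_eq_one_right h2, Nat.cast_one, one_mul]
      · intro θ' hθ' hne
        have h4 := Finset.sum_eq_zero_iff.1 (show ∑ θ' ∈ (Finset.univ.filter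
          (fun θ : IrrCharacter H => D.S.expo θ = e₁)).erase θ,
          mult φ θ' * charDegree (θ' : H → ℂ) = 0 by omega) θ' (Finset.mem_erase.2 ⟨hne, hθ'⟩)
        rw [(mul_eq_zero.1 h4).resolve_right (Blocks.charDegree_eq θ'.2).2.ne', Nat.cast_zero,
          zero_mul]
      · exact fun h => absurd hθ h
    obtain ⟨f, hf⟩ := Chars.exists_hom_of_degree_one (Chars.irr_isCharacter θ)
      (by rw [apply_one_eq_deg, Nat.eq_one_of_mul_eq_one_left h2, Nat.cast_one])
    rw [h3, hf]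
    refine Complex.norm_eq_one_of_pow_eq_one ?_ (orderOf_pos c).ne'
    rw [← Units.val_pow_eq_pow_val, ← map_pow, pow_orderOf_eq_one, map_one, Units.val_one]
  refine mem_center_of_norm (Chars.irr_isCharacter φ) D.hfaith ?_
  have hφc : (φ : G → ℂ) c = (e : ℂ) * F e₁ := by
    have h := hval 0
    simp only [pow_zero, one_mul, Nat.cast_zero, zero_mul, AddChar.map_zero_eq_one] at h
    rw [h, ← Finset.sum_subset (Finset.subset_univ D.supp) fun i _ hi =>
      hzero i (not_not.1 fun h => hi (D.mem_supp.2 h)), Finset.sum_congr rfl hconst,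
      Finset.sum_const, D.card_supp, nsmul_eq_mul]
  rw [hφc, D.apply_one, norm_mul, hnorm, mul_one]

theorem not_mem_center (D : Half M p m K e x σ H φ) : x ∉ Subgroup.center G := fun hx => by
  obtain ⟨w, hw, hwv⟩ := exists_scalar φ.2 hx
  refine D.hns ?_
  have h := hwv 1
  rw [one_mul] at h
  rw [h, D.apply_one, norm_mul, hw, one_mul, Complex.norm_natCast, D.hdeg]

theorem not_dvd_center (D : Half M p m K e x σ H φ) {z : G} (hz : z ∈ Subgroup.center G) :
    ¬ p ∣ orderOf z := fun h => by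
  have hu := orderOf_pow_orderOf_div (orderOf_pos z).ne' h
  set u := z ^ (orderOf z / p)
  have huc : u ∈ Subgroup.center G := Subgroup.pow_mem _ hz _
  obtain ⟨a, ha⟩ := D.S.exists_conj_of_order hu
  rw [Subgroup.mem_center_iff.1 huc a, mul_inv_cancel_right] at ha
  have hc : Subgroup.zpowers u = Subgroup.zpowers x := by
    refine Subgroup.eq_of_le_of_card_ge (Subgroup.zpowers_le.2 ha) ?_
    rw [Nat.card_zpowers, Nat.card_zpowers, hu, D.S.hx]
  exact D.not_mem_center ((Subgroup.zpowers_le.2 huc) (hc ▸ Subgroup.mem_zpowers x))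

theorem center_le (D : Half M p m K e x σ H φ) : Subgroup.center G ≤ H := fun z hz => by
  rw [D.S.hH, Subgroup.mem_centralizer_singleton_iff]
  exact (Subgroup.mem_center_iff.1 hz x).symm

/-- The elements of order divisible by `p`. -/
theorem exists_form (D : Half M p m K e x σ H φ) {g : G} (hg : p ∣ orderOf g) :
    ∃ (a : G) (j : ℕ), ∃ z ∈ Subgroup.center G, g = a * (x ^ K ^ j * z) * a⁻¹ := by
  obtain ⟨a, j, s, hs, he⟩ := D.S.exists_singular_form hg
  exact ⟨a, j, s, D.mem_center_of_regular s hs, he⟩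

theorem perfect (D : Half M p m K e x σ H φ) : commutator G = ⊤ := by
  obtain ⟨c, hc⟩ := isConj_iff.1 D.conj_K_sq
  refine eq_top_iff.2 fun y _ => D.hall (commutator G) inferInstance ?_ y
  have hmem : x ^ ((1 : ℤ) - (K : ℤ) ^ 2) ∈ commutator G := by
    have h1 : c * x ^ K ^ 2 * c⁻¹ * (x ^ K ^ 2)⁻¹ ∈ commutator G := by
      rw [commutator_def]
      exact Subgroup.commutator_mem_commutator (Subgroup.mem_top c) (Subgroup.mem_top (x ^ K ^ 2))
    rw [hc] at h1
    rwa [zpow_sub, zpow_one, show ((K : ℤ) ^ 2) = ((K ^ 2 : ℕ) : ℤ) by push_cast; rfl, zpow_natCast]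
  have hne : ((1 : ℤ) - (K : ℤ) ^ 2 : ℤ).gcd p = 1 := by
    rw [Int.gcd_comm]
    refine (Nat.Prime.coprime_iff_not_dvd hp.out).2 fun h => ?_
    have h' : (p : ℤ) ∣ (1 : ℤ) - (K : ℤ) ^ 2 := by
      rw [Int.natCast_dvd]; simpa using h
    rw [← ZMod.intCast_zmod_eq_zero_iff_dvd] at h'
    push_cast at h'
    have h1 : ((K : ℕ) : ZMod p) ^ 2 = 1 := (sub_eq_zero.1 h').symm
    have h2 := Nat.le_of_dvd (by norm_num) (orderOf_dvd_of_pow_eq_one h1)
    rw [D.S.ord] at h2
    have := D.hp5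
    omega
  obtain ⟨u, v, huv⟩ := Int.isCoprime_iff_gcd_eq_one.2 hne
  have hxp : x ^ ((p : ℤ)) = 1 := by rw [zpow_natCast, ← D.S.hx, pow_orderOf_eq_one]
  have : x = (x ^ ((1 : ℤ) - (K : ℤ) ^ 2)) ^ u := by
    rw [← zpow_mul]
    calc x = x ^ ((1 : ℤ)) := (zpow_one x).symm
      _ = x ^ (u * (1 - (K : ℤ) ^ 2) + v * (p : ℤ)) := by rw [huv]
      _ = _ := by rw [zpow_add, mul_comm v, zpow_mul _ (p : ℤ), hxp, one_zpow, mul_one, mul_comm u]
  rw [this]
  exact Subgroup.zpow_mem _ hmem u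

/-- A normal subgroup of order prime to `p` is central. -/
theorem le_center_of_not_dvd (D : Half M p m K e x σ H φ) (L : Subgroup G) [L.Normal]
    (hL : ¬ p ∣ Nat.card L) : L ≤ Subgroup.center G := by
  classical
  set J := L ⊔ Subgroup.zpowers x with hJ
  haveI := Fintype.ofFinite J
  have hxJ : x ∈ J := (le_sup_right : Subgroup.zpowers x ≤ J) (Subgroup.mem_zpowers x)
  have hx' : orderOf (⟨x, hxJ⟩ : J) = p := by rw [← Subgroup.orderOf_coe]; exact D.S.hx
  have hdJ : p ∣ Nat.card J := by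
    have h := orderOf_dvd_natCard (⟨x, hxJ⟩ : J)
    rwa [hx'] at h
  have hsqJ : ¬ p ^ 2 ∣ Nat.card J := fun h => by
    have h1 := h.trans (Subgroup.card_subgroup_dvd_card J)
    rw [D.S.card, sq] at h1
    exact D.S.hm (Nat.dvd_of_mul_dvd_mul_left hp.out.pos h1)
  obtain ⟨K', σ', S'⟩ := exists_once D.S.hpM hdJ hsqJ hx'
  haveI : Fintype (Subgroup.centralizer ({(⟨x, hxJ⟩ : J)} : Set J)) := Fintype.ofFinite _
  have hfus : ∀ a : ℕ, IsConj ((⟨x, hxJ⟩ : J) ^ K' ^ a) ⟨x, hxJ⟩ →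
      (⟨x, hxJ⟩ : J) ^ K' ^ a = ⟨x, hxJ⟩ := by
    intro a ha
    obtain ⟨g, hg⟩ := isConj_iff.1 ha
    have hg' : (g : G) * x ^ K' ^ a * (g : G)⁻¹ = x := congrArg Subtype.val hg
    have hgmem : (g : G) ∈ L ⊔ Subgroup.zpowers x := g.2
    obtain ⟨l, hl, y, hy, hly⟩ := Subgroup.mem_sup_of_normal_left.1 hgmem
    set q := x ^ K' ^ a
    have hcomm : y * q = q * y := by
      obtain ⟨i, rfl⟩ := Subgroup.mem_zpowers_iff.1 hy
      exact (((Commute.refl x).zpow_left i).pow_right _).eq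
    rw [← hly] at hg'
    have h1 : l * q * l⁻¹ = x := by
      rw [← hg']
      calc l * q * l⁻¹ = l * (q * y) * y⁻¹ * l⁻¹ := by group
        _ = l * (y * q) * y⁻¹ * l⁻¹ := by rw [hcomm]
        _ = _ := by group
    have h2 : x * q⁻¹ ∈ L := by
      rw [← h1, show l * q * l⁻¹ * q⁻¹ = l * (q * l⁻¹ * q⁻¹) by group]
      exact mul_mem hl (‹L.Normal›.conj_mem _ (inv_mem hl) q)
    have h3 : x * q⁻¹ = 1 := by
      by_contra hne
      have hz : x * q⁻¹ ∈ Subgroup.zpowers x :=
        mul_mem (Subgroup.mem_zpowers x) (inv_mem (Subgroup.pow_mem _ (Subgroup.mem_zpowers x) _))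
      have h4 := Subgroup.orderOf_dvd_natCard _ hz
      rw [Nat.card_zpowers, D.S.hx] at h4
      have h5 := ((Nat.dvd_prime hp.out).1 h4).resolve_left fun h => hne (orderOf_eq_one_iff.1 h)
      exact hL (h5 ▸ Subgroup.orderOf_dvd_natCard _ h2)
    exact Subtype.ext (mul_inv_eq_one.1 h3).symm
  have hres : IsCharacter J (fun g : J => (φ : G → ℂ) g) :=
    Chars.isCharacter_restrict (Chars.irr_isCharacter φ) J
  obtain ⟨mm, hmm, hdec⟩ := Chars.exists_eq_sum_nsmul hres
  have hle : ∀ ψ, mm ψ ≠ 0 → charDegree (ψ : J → ℂ) ≤ e := fun ψ hψ => by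
    have h := sum_mult_le hres (d := e) D.apply_one {ψ} mm fun ψ _ => hmm ψ
    rw [Finset.sum_singleton] at h
    exact le_trans (Nat.le_mul_of_pos_left _ (Nat.pos_of_ne_zero hψ)) h
  have hcommx : ∀ g : J, (⟨x, hxJ⟩ : J) * g = g * ⟨x, hxJ⟩ := by
    intro g
    have hv : (φ : G → ℂ) ((⟨x, hxJ⟩ * g * (⟨x, hxJ⟩ : J)⁻¹ * g⁻¹ : J) : G) =
        (φ : G → ℂ) 1 := by
      have h1 := congrFun hdec (⟨x, hxJ⟩ * g * (⟨x, hxJ⟩ : J)⁻¹ * g⁻¹)
      have h2 := congrFun hdec 1
      simp only [Finset.sum_apply, Pi.smul_apply, OneMemClass.coe_one] at h1 h2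
      rw [h1, h2]
      refine Finset.sum_congr rfl fun ψ _ => ?_
      rcases Nat.eq_zero_or_pos (mm ψ) with h0 | h0
      · rw [h0, zero_smul, zero_smul]
      congr 1
      have hnorm := S'.scalar_of_no_fusion (φ := ψ) (by have := D.hp5; omega) hfus
        (by have := hle ψ h0.ne'; have := D.he; omega)
      obtain ⟨n, ρ, hρ⟩ := Chars.irr_isCharacter ψ
      have h3 : ρ.character 1 = (charDegree (ψ : J → ℂ) : ℂ) := by
        rw [hρ, apply_one_eq_deg]
      rw [Representation.char_one, Nat.cast_inj] at h3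
      obtain ⟨cc, hcc⟩ := (Chars.rep_norm_char_eq_iff ρ ⟨x, hxJ⟩).1 (by rw [hρ, hnorm, h3])
      rw [← hρ]
      have e1 : ρ (⟨x, hxJ⟩ * g) = ρ (g * ⟨x, hxJ⟩) := by rw [map_mul, map_mul, hcc]; simp
      have e2 : ρ (⟨x, hxJ⟩ * g * (⟨x, hxJ⟩ : J)⁻¹ * g⁻¹) = ρ 1 := by
        rw [mul_assoc (⟨x, hxJ⟩ * g), map_mul, e1, ← map_mul]
        congr 1
        group
      simp only [Representation.character, e2]
    have h1 : (⟨x, hxJ⟩ : J) * g * (⟨x, hxJ⟩ : J)⁻¹ * g⁻¹ = 1 := Subtype.ext (D.hfaith _ hv)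
    rwa [mul_inv_eq_one, mul_inv_eq_iff_eq_mul] at h1
  -- the centralizer of `L` contains `x`
  have hxC : x ∈ Subgroup.centralizer (L : Set G) := by
    refine Subgroup.mem_centralizer_iff.2 fun l hl => ?_
    exact (congrArg Subtype.val (hcommx ⟨l, (le_sup_left : L ≤ J) hl⟩)).symm
  intro l hl
  refine Subgroup.mem_center_iff.2 fun y => ?_
  exact (Subgroup.mem_centralizer_iff.1 (D.hall _ inferInstance hxC y) l hl).symm

theorem pPrimeCore_eq (D : Half M p m K e x σ H φ) : pPrimeCore p G = Subgroup.center G := by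
  refine le_antisymm (D.le_center_of_not_dvd _ (Core.not_dvd_card_pPrimeCore p G)) ?_
  refine Core.le_pPrimeCore inferInstance (hp.out.coprime_iff_not_dvd.2 fun h => ?_).symm
  obtain ⟨⟨z, hz⟩, hzo⟩ := exists_prime_orderOf_dvd_card' p h
  rw [← Subgroup.orderOf_coe] at hzo
  exact D.not_dvd_center hz (hzo ▸ dvd_rfl)

end Half

end Cfsg.Agent.Blocks.HalfDegree
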