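import Cfsg.Agent.Blocks.HalfDegree.Main

/-!
Reduction to the subgroup generated by the elements of order `p`.
-/

set_option autoImplicit false
set_option linter.unusedSectionVars false
set_option linter.style.haveILetI false

namespace Cfsg.Agent.Blocks.HalfDegree

open Cfsg Cfsg.Agent Cfsg.Agent.Blocks Cfsg.Agent.BlockChar Cfsg.Agent.Chars2.Cyc Function
  Screen.BrauerP
open scoped ComplexConjugate Pointwise

universe u

variable {G : Type u} [Group G] [Finite G]

theorem reduce (p : ℕ) (hp : p.Prime) (hdiv : p ∣ Nat.card G) (hsq : ¬ p ^ 2 ∣ Nat.card G)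
    (hnn : ∀ H : Subgroup G, H.Normal → Nat.card H ≠ p) (χ : G → ℂ) (hχ : IsCharacter G χ)
    (hfaith : ∀ g : G, χ g = χ 1 → g = 1) (hdeg : 2 * charDegree χ + 1 = p) :
    Nonempty ((G ⧸ Subgroup.center G) ≃*
      Matrix.ProjectiveSpecialLinearGroup (Fin 2) (ZMod p)) := by
  classical
  haveI : Fact p.Prime := ⟨hp⟩
  haveI := Fintype.ofFinite G
  obtain ⟨M, hMmax, hpM⟩ : ∃ M : Ideal AlgInt, M.IsMaximal ∧ (p : AlgInt) ∈ M :=
    DegreeGraph.exists_isMaximal_mem p
  haveI := hMmax
  set e := charDegree χ with he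
  obtain ⟨n1, hn1⟩ := Chars.exists_apply_one_eq hχ
  have hχ1 : χ 1 = (e : ℂ) := by rw [he, charDegree, hn1, Complex.natCast_re, Nat.floor_natCast]
  have h3 : p ≠ 3 := by
    intro h
    subst h
    have he1 : e = 1 := by omega
    obtain ⟨f, hf⟩ := Chars.exists_hom_of_degree_one hχ (by rw [hχ1, he1, Nat.cast_one])
    have hinj : ∀ a b : G, a * b = b * a := by
      intro a b
      have h1 : χ (a * b * a⁻¹ * b⁻¹) = χ 1 := by
        rw [hf]
        simp only [map_mul, map_inv, map_one]
        rw [mul_comm (f a) (f b), mul_assoc (f b), mul_inv_cancel, mul_one, mul_inv_cancel]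
      have h2 := hfaith _ h1
      rwa [mul_inv_eq_one, mul_inv_eq_iff_eq_mul] at h2
    obtain ⟨x, hx⟩ := exists_prime_orderOf_dvd_card' 3 hdiv
    refine hnn (Subgroup.zpowers x) ⟨fun a ha g => ?_⟩ (by rw [Nat.card_zpowers, hx])
    rwa [hinj g a, mul_inv_cancel_right]
  have hp5 : 5 ≤ p := by
    have := hp.two_le
    have h4 : p ≠ 4 := fun h => by rw [h] at hp; norm_num at hp
    omega
  let N : Subgroup G := Subgroup.closure {g : G | orderOf g = p}
  haveI hNn : N.Normal := by
    refine ⟨fun a ha g => ?_⟩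
    have hle : N ≤ N.comap (MulAut.conj g).toMonoidHom := by
      refine (Subgroup.closure_le _).2 fun y hy => Subgroup.mem_comap.2 (Subgroup.subset_closure ?_)
      show orderOf ((MulAut.conj g) y) = p
      rw [MulEquiv.orderOf_eq]; exact hy
    exact hle ha
  haveI := Fintype.ofFinite N
  obtain ⟨x, hx⟩ := exists_prime_orderOf_dvd_card' p hdiv
  have hxN : x ∈ N := Subgroup.subset_closure hx
  set xN : N := ⟨x, hxN⟩ with hxNdef
  have hx' : orderOf xN = p := by rw [← Subgroup.orderOf_coe]; exact hx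
  have hdN : p ∣ Nat.card N := by
    have h := orderOf_dvd_natCard xN
    rwa [hx'] at h
  obtain ⟨K, σ, S⟩ := exists_once hpM hdN
    (fun h => hsq (h.trans (Subgroup.card_subgroup_dvd_card N))) hx'
  haveI : Fintype (Subgroup.centralizer ({xN} : Set N)) := Fintype.ofFinite _
  have hconj : ∀ y : N, orderOf (y : G) = p →
      ∃ a : N, a * y * a⁻¹ ∈ Subgroup.zpowers xN := fun y hy =>
    S.exists_conj_of_order (by rw [← Subgroup.orderOf_coe]; exact hy)
  have hall : ∀ (D : Subgroup N), D.Normal → xN ∈ D → ∀ y : N, y ∈ D := by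
    intro D hD hxD
    have hle : N ≤ D.map N.subtype := by
      refine (Subgroup.closure_le _).2 fun y hy => ?_
      obtain ⟨a, ha⟩ := hconj ⟨y, Subgroup.subset_closure hy⟩ hy
      refine ⟨⟨y, Subgroup.subset_closure hy⟩, ?_, rfl⟩
      have h := hD.conj_mem _ (Subgroup.zpowers_le.2 hxD ha) a⁻¹
      rwa [show a⁻¹ * (a * (⟨y, Subgroup.subset_closure hy⟩ : N) * a⁻¹) * a⁻¹⁻¹ = ⟨y, Subgroup.subset_closure hy⟩ by group] at h
    intro y
    obtain ⟨z, hz, he⟩ := hle y.2
    rwa [← Subtype.ext he]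
  have hgen : ∀ ψ : IrrCharacter N, (ψ : N → ℂ) xN = (ψ : N → ℂ) 1 → ψ = Blocks.oneChar N := by
    intro ψ hψ
    have hc := fun y => (Chars.mem_charKer (Chars.irr_isCharacter ψ)).1
      (hall _ (Chars.charKer_normal (Chars.irr_isCharacter ψ))
        ((Chars.mem_charKer (Chars.irr_isCharacter ψ)).2 hψ) y)
    by_contra hne
    have h := Chars.classInner_irrCharacter ψ (Blocks.oneChar N)
    rw [if_neg hne, Chars.classInner_def, Finset.sum_congr rfl fun y _ => by rw [hc y]] at h
    simp [Blocks.coe_oneChar, Chars.irr_apply_one_ne_zero ψ.2] at h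
  have hres : IsCharacter N (fun g : N => χ g) := Chars.isCharacter_restrict hχ N
  obtain ⟨mm, hmm, hdec⟩ := Chars.exists_eq_sum_nsmul hres
  have hval : ∀ g : N, χ g = ∑ ψ : IrrCharacter N, (mm ψ : ℂ) * (ψ : N → ℂ) g := fun g => by
    have h := congrFun hdec g
    simp only [Finset.sum_apply, Pi.smul_apply, nsmul_eq_mul] at h
    exact h
  -- some constituent is not scalar at `x`
  obtain ⟨φ, hmφ, hns⟩ : ∃ φ : IrrCharacter N, mm φ ≠ 0 ∧
      ‖(φ : N → ℂ) xN‖ ≠ charDegree (φ : N → ℂ) := by
    by_contra hno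
    push Not at hno
    have hcentral : ∀ g : N, xN * g = g * xN := by
      intro g
      have h := hval (xN * g * xN⁻¹ * g⁻¹)
      rw [Finset.sum_congr rfl (g := fun ψ => (mm ψ : ℂ) * (ψ : N → ℂ) 1) fun ψ _ => ?_, ← hval,
        OneMemClass.coe_one] at h
      · have h' : xN * g * xN⁻¹ * g⁻¹ = 1 := Subtype.ext (hfaith _ h)
        rwa [mul_inv_eq_one, mul_inv_eq_iff_eq_mul] at h'
      · rcases Nat.eq_zero_or_pos (mm ψ) with h0 | h0
        · simp [h0]
        congr 1
        obtain ⟨n, ρ, hρ⟩ := Chars.irr_isCharacter ψ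
        have h1 : ρ.character 1 = (charDegree (ψ : N → ℂ) : ℂ) := by rw [hρ, apply_one_eq_deg]
        rw [Representation.char_one, Nat.cast_inj] at h1
        obtain ⟨c, hc⟩ := (Chars.rep_norm_char_eq_iff ρ xN).1 (by rw [hρ, hno ψ h0.ne', h1])
        rw [← hρ]
        have e1 : ρ (xN * g) = ρ (g * xN) := by rw [map_mul, map_mul, hc]; simp
        have e2 : ρ (xN * g * xN⁻¹ * g⁻¹) = ρ 1 := by
          rw [mul_assoc (xN * g), map_mul, e1, ← map_mul]
          congr 1
          group
        simp only [Representation.character, e2]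
    have hsub : N = Subgroup.zpowers x := by
      refine le_antisymm ((Subgroup.closure_le _).2 fun y hy => ?_) (Subgroup.zpowers_le.2 hxN)
      obtain ⟨a, j, hj⟩ := hconj ⟨y, Subgroup.subset_closure hy⟩ hy
      have hcomm : Commute (xN ^ j) a⁻¹ := (show Commute xN a⁻¹ from hcentral a⁻¹).zpow_left j
      have he : (⟨y, Subgroup.subset_closure hy⟩ : N) = xN ^ j := by
        have hj' : xN ^ j = a * ⟨y, Subgroup.subset_closure hy⟩ * a⁻¹ := hj
        calc (⟨y, Subgroup.subset_closure hy⟩ : N)
            = a⁻¹ * (a * ⟨y, Subgroup.subset_closure hy⟩ * a⁻¹) * a := by group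
          _ = a⁻¹ * xN ^ j * a := by rw [hj']
          _ = _ := by rw [← hcomm.eq, inv_mul_cancel_right]
      exact ⟨j, by simpa [hxNdef] using (congrArg Subtype.val he).symm⟩
    exact hnn N hNn (by rw [hsub, Nat.card_zpowers, hx])
  have hN1 : χ (1 : N) = ((e : ℕ) : ℂ) := by rw [OneMemClass.coe_one, hχ1]
  have hφle : charDegree (φ : N → ℂ) ≤ e := by
    have h := sum_mult_le hres hN1 {φ} mm fun ψ _ => hmm ψ
    rw [Finset.sum_singleton] at h
    exact le_trans (Nat.le_mul_of_pos_left _ (Nat.pos_of_ne_zero hmφ)) h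
  have hφdeg : charDegree (φ : N → ℂ) = e := by
    have := S.le_of_nonscalar hgen hns
    omega
  have hφeq : ∀ g : N, χ g = (φ : N → ℂ) g := by
    have h := eq_sum_of_mult hres {φ} (fun ψ hψ => by
      rw [Finset.mem_singleton] at hψ
      rw [hψ, hmm]; exact Nat.cast_ne_zero.2 hmφ) (by rw [Finset.sum_singleton, hφdeg]; exact hN1)
    intro g
    have h' := congrFun h g
    rwa [Finset.sum_singleton] at h'
  have hφf : ∀ g : N, (φ : N → ℂ) g = (φ : N → ℂ) 1 → g = 1 := fun g hg => by
    rw [← hφeq, ← hφeq, OneMemClass.coe_one] at hg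
    exact Subtype.ext (hfaith _ hg)
  have D : Half M p (Nat.card N / p) K e xN σ (Subgroup.centralizer ({xN} : Set N)) φ :=
    ⟨S, hp5, hdeg, hφdeg, hφf, hgen, hall, hns⟩
  obtain ⟨hcardN, ⟨iN⟩⟩ := D.quotient_iso
  -- the centre of `N` is central in `G`
  have hZle : ∀ z : N, z ∈ Subgroup.center N → (z : G) ∈ Subgroup.center G := by
    intro z hz
    obtain ⟨w, hw, hwv⟩ := exists_scalar φ.2 hz
    refine mem_center_of_norm hχ hfaith ?_
    have h1 := hwv 1
    rw [one_mul] at h1
    rw [hφeq, h1, ← hφeq, OneMemClass.coe_one, norm_mul, hw, one_mul]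
  -- the action on the Sylow subgroups
  have hcardX : Nat.card (Subgroup.zpowers x) = p ^ (Nat.card G).factorization p := by
    have hv : (Nat.card G).factorization p = 1 := by
      have h1 := hp.factorization_pos_of_dvd Nat.card_pos.ne' hdiv
      have h2 : ¬ 2 ≤ (Nat.card G).factorization p := fun h =>
        hsq ((hp.pow_dvd_iff_le_factorization Nat.card_pos.ne').2 h)
      omega
    rw [hv, pow_one, Nat.card_zpowers, hx]
  set P : Sylow p G := Sylow.ofCard _ hcardX with hP
  have hPc : (P : Subgroup G) = Subgroup.zpowers x := Sylow.coe_ofCard _ _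
  have hxP : x ∈ (P : Subgroup G) := by rw [hPc]; exact Subgroup.mem_zpowers x
  have hQle : ∀ Q : Sylow p G, (Q : Subgroup G) ≤ N := fun Q y hy => by
    by_cases hy1 : y = 1
    · rw [hy1]; exact one_mem _
    refine Subgroup.subset_closure ?_
    have hQc : Nat.card (Q : Subgroup G) = p := by
      rw [Q.card_eq_multiplicity, ← hcardX, Nat.card_zpowers, hx]
    have h1 := Subgroup.orderOf_dvd_natCard _ hy
    rw [hQc] at h1
    exact ((Nat.dvd_prime hp).1 h1).resolve_left fun h => hy1 (orderOf_eq_one_iff.1 h)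
  have hcardG : Nat.card (Sylow p G) = p + 1 := by
    refine le_antisymm ?_ ?_
    · rw [← hcardN]
      refine Nat.card_le_card_of_injective (fun Q => Q.subtype (hQle Q)) fun Q R h => ?_
      exact Sylow.subtype_injective h
    · rw [← hcardN]
      have hvN : (Nat.card N).factorization p = (Nat.card G).factorization p := by
        rw [D.S.vG]
        have h1 : Nat.card (Subgroup.zpowers x) = p := by rw [Nat.card_zpowers, hx]
        exact (Nat.pow_right_injective hp.two_le (show p ^ (Nat.card G).factorization p = p ^ 1 by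
          rw [← hcardX, h1, pow_one])).symm
      refine Nat.card_le_card_of_injective
        (fun R : Sylow p N => Sylow.ofCard ((R : Subgroup N).map N.subtype) (by
          rw [Subgroup.card_map_of_injective N.subtype_injective, R.card_eq_multiplicity, hvN]))
        fun R R' h => Sylow.ext (Subgroup.map_injective N.subtype_injective ?_)
      simpa using congrArg (fun Q : Sylow p G => (Q : Subgroup G)) h
  have hfixP : ∀ Q : Sylow p G, x • Q = Q → Q = P := by
    intro Q hQ
    have h1 : x ∈ Subgroup.normalizer ((Q : Subgroup G) : Set G) :=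
      Sylow.smul_eq_iff_mem_normalizer.1 hQ
    have h2 : x ∈ (P : Subgroup G) ⊓ Subgroup.normalizer ((Q : Subgroup G) : Set G) := ⟨hxP, h1⟩
    have h3 : x ∈ (P : Subgroup G) ⊓ (Q : Subgroup G) :=
      (IsPGroup.inf_normalizer_sylow P.2 Q).le h2
    refine (Sylow.ext ?_).symm
    refine Subgroup.eq_of_le_of_card_ge (by rw [hPc]; exact Subgroup.zpowers_le.2 h3.2) ?_
    rw [P.card_eq_multiplicity, Q.card_eq_multiplicity]
  have hxfP : x • P = P :=
    Sylow.smul_eq_iff_mem_normalizer.2 (Subgroup.le_normalizer hxP)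
  obtain ⟨Q₀, hQ₀⟩ : ∃ Q₀ : Sylow p G, Q₀ ≠ P := by
    haveI : Nontrivial (Sylow p G) :=
      Finite.one_lt_card_iff_nontrivial.1 (by rw [hcardG]; omega)
    exact exists_ne P
  have hxQ₀ : ¬ x • Q₀ = Q₀ := fun h => hQ₀ (hfixP _ h)
  haveI : Fintype (Sylow p G) := Fintype.ofFinite _
  have himg : (Finset.range p).image (fun i => x ^ i • Q₀) = Finset.univ.erase P := by
    refine Finset.eq_of_subset_of_card_le (fun Q hQ => ?_) ?_
    · obtain ⟨i, -, rfl⟩ := Finset.mem_image.1 hQ
      refine Finset.mem_erase.2 ⟨fun h => hQ₀ ?_, Finset.mem_univ _⟩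
      have h1 : ∀ j : ℕ, x ^ j • P = P := fun j => by
        induction j with
        | zero => rw [pow_zero, one_smul]
        | succ j ih => rw [pow_succ, mul_smul, hxfP, ih]
      exact smul_left_cancel (x ^ i) (h.trans (h1 i).symm)
    · rw [Finset.card_erase_of_mem (Finset.mem_univ _), Finset.card_univ, ← Nat.card_eq_fintype_card,
        hcardG, Finset.card_image_of_injOn, Finset.card_range]
      · omega
      intro i hi j hj hij
      by_contra hne
      have key : ∀ a b : ℕ, a < b → b < p → x ^ a • Q₀ = x ^ b • Q₀ → False := by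
        intro a b hab hb h
        have h1 : x ^ (b - a) • Q₀ = Q₀ := by
          refine smul_left_cancel (x ^ a) ?_
          rw [← mul_smul, ← pow_add, Nat.add_sub_cancel' hab.le]
          exact h.symm
        have h2 : x ∈ MulAction.stabilizer G Q₀ := by
          have h3 : x ^ (b - a) ∈ MulAction.stabilizer G Q₀ := h1
          have h4 : Nat.Coprime (b - a) (orderOf x) := by
            rw [hx]
            exact (hp.coprime_iff_not_dvd.2 fun hd => by
              have := Nat.le_of_dvd (by omega) hd; omega).symm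
          obtain ⟨l, hl⟩ := exists_pow_eq_self_of_coprime h4
          rw [← hl]
          exact Subgroup.pow_mem _ h3 l
        exact hxQ₀ h2
      rcases lt_or_gt_of_ne hne with h | h
      · exact key i j h (Finset.mem_range.1 hj) hij
      · exact key j i h (Finset.mem_range.1 hi) hij.symm
  -- the kernel of the action is central
  set Kr : Subgroup G := (MulAction.toPermHom G (Sylow p G)).ker with hKr
  have hKrmem : ∀ k : G, k ∈ Kr ↔ ∀ Q : Sylow p G, k • Q = Q := fun k => by
    rw [hKr, MonoidHom.mem_ker, Equiv.Perm.ext_iff]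
    rfl
  have hKN : ∀ k : N, (k : G) ∈ Kr → k ∈ Subgroup.center N := by
    intro k hk
    haveI : (Kr.subgroupOf N).Normal := Subgroup.Normal.subgroupOf inferInstance N
    refine D.le_center_of_not_dvd (Kr.subgroupOf N) (fun hd => ?_) hk
    obtain ⟨⟨y, hy⟩, hyo⟩ := exists_prime_orderOf_dvd_card' p hd
    rw [← Subgroup.orderOf_coe] at hyo
    obtain ⟨a, ha⟩ := D.S.exists_conj_of_order hyo
    have hmem : a * y * a⁻¹ ∈ Kr.subgroupOf N :=
      Subgroup.Normal.conj_mem inferInstance y hy a
    have hz : Subgroup.zpowers (a * y * a⁻¹) = Subgroup.zpowers xN := by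
      refine Subgroup.eq_of_le_of_card_ge (Subgroup.zpowers_le.2 ha) ?_
      rw [Nat.card_zpowers, Nat.card_zpowers, hx']
      have h1 := (MulAut.conj a).orderOf_eq y
      rw [MulAut.conj_apply] at h1
      rw [h1, hyo]
    have hxK : xN ∈ Kr.subgroupOf N :=
      Subgroup.zpowers_le.2 hmem (hz ▸ Subgroup.mem_zpowers xN)
    exact hxQ₀ ((hKrmem x).1 hxK Q₀)
  have hKc : ∀ k ∈ Kr, k ∈ Subgroup.center G := by
    intro k hk
    have hcK : ∀ n : N, (⟨k * n * k⁻¹ * (n : G)⁻¹, by
        exact mul_mem (hNn.conj_mem _ n.2 k) (inv_mem n.2)⟩ : N) ∈ Subgroup.center N := fun n =>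
      hKN _ (by
        show k * n * k⁻¹ * (n : G)⁻¹ ∈ Kr
        rw [show k * (n : G) * k⁻¹ * (n : G)⁻¹ = k * ((n : G) * k⁻¹ * (n : G)⁻¹) by group]
        exact mul_mem hk ((MonoidHom.normal_ker _).conj_mem _ (inv_mem hk) _))
    let f : N →* Subgroup.center N :=
      { toFun := fun n => ⟨_, hcK n⟩
        map_one' := by apply Subtype.ext; apply Subtype.ext; simp
        map_mul' := fun a b => by
          apply Subtype.ext; apply Subtype.ext
          have hb := congrArg Subtype.val (Subgroup.mem_center_iff.1 (hcK b) a⁻¹)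
          simp only [Subgroup.coe_mul, InvMemClass.coe_inv] at hb
          show k * ((a : G) * b) * k⁻¹ * ((a : G) * b)⁻¹ =
            k * a * k⁻¹ * (a : G)⁻¹ * (k * b * k⁻¹ * (b : G)⁻¹)
          calc k * ((a : G) * b) * k⁻¹ * ((a : G) * b)⁻¹
              = k * a * k⁻¹ * ((k * b * k⁻¹ * (b : G)⁻¹) * (a : G)⁻¹) := by group
            _ = k * a * k⁻¹ * ((a : G)⁻¹ * (k * b * k⁻¹ * (b : G)⁻¹)) := by rw [hb]
            _ = _ := by group }
    have htriv : ∀ n : N, k * (n : G) = n * k := fun n => by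
      have hk1 : n ∈ f.ker := by
        have hle : commutator N ≤ f.ker := by
          rw [commutator_def, Subgroup.commutator_le]
          intro a _ b _
          rw [MonoidHom.mem_ker, map_commutatorElement, commutatorElement_eq_one_iff_mul_comm]
          exact mul_comm' _ _
        exact hle (D.perfect ▸ Subgroup.mem_top n)
      have h1 : k * (n : G) * k⁻¹ * (n : G)⁻¹ = 1 :=
        congrArg (fun z : Subgroup.center N => ((z : N) : G)) (MonoidHom.mem_ker.1 hk1)
      rwa [mul_inv_eq_one, mul_inv_eq_iff_eq_mul] at h1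
    obtain ⟨d, ρ, hρ⟩ := hχ
    haveI : Representation.IsIrreducible (ρ.comp N.subtype) := by
      refine Chars.isIrreducible_of_character _ ?_
      have h1 : Representation.character (ρ.comp N.subtype : Representation ℂ N (Fin d → ℂ)) =
          (φ : N → ℂ) := by
        funext g
        rw [← hφeq g, ← hρ]
        rfl
      rw [h1]
      exact φ.2
    obtain ⟨c, hc⟩ := Chars.scalar_of_commute (ρ.comp N.subtype) (ρ k) (fun n => by
      show ρ k * ρ (n : G) = ρ (n : G) * ρ k
      rw [← map_mul, ← map_mul, htriv n])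
    refine mem_center_of_norm ⟨d, ρ, hρ⟩ hfaith ?_
    have h2 := (Chars.rep_norm_char_eq_iff ρ k).2 ⟨c, hc⟩
    have h4 := congrFun hρ 1
    rw [Representation.char_one] at h4
    rw [← h4, Complex.norm_natCast, ← hρ]
    exact h2
  -- the fusion of `x` in `G`
  have heven : ∀ i : ℕ, IsConj (xN ^ K ^ (2 * i)) xN := fun i => by
    induction i with
    | zero => rw [mul_zero, pow_zero, pow_one]
    | succ i ih =>
      obtain ⟨c, hc⟩ := isConj_iff.1 ih
      refine IsConj.trans (isConj_iff.2 ⟨c, ?_⟩) D.conj_K_sq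
      rw [mul_add, mul_one, pow_add, pow_mul, ← conj_pow, hc]
  have hnotK : ¬ IsConj (x ^ K) x := fun hc => by
    refine D.S.false_of_fixed_half (by rw [hφdeg]; omega) D.hns fun j => ?_
    obtain ⟨c, hc⟩ := isConj_iff.1 hc
    have hcl := Chars.isClassFunction_of_isCharacter hχ
    rw [← hφeq, ← hφeq, Subgroup.coe_pow, Subgroup.coe_pow]
    show χ (x ^ (j * K)) = χ (x ^ j)
    rw [mul_comm, pow_mul, ← hcl ((x ^ K) ^ j) c, ← conj_pow, hc]
  have hsurj : ∀ g : G, ∃ n : N, ∃ z ∈ Subgroup.center G, g = n * z := by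
    intro g
    obtain ⟨a, ha⟩ := hconj ⟨g * x * g⁻¹, hNn.conj_mem _ hxN g⟩ (by
      show orderOf ((MulAut.conj g) x) = p
      rw [MulEquiv.orderOf_eq, hx])
    obtain ⟨j, -, hj⟩ := D.S.exists_pow_of_mem ha (fun h => by
      rw [conj_eq_one_iff] at h
      have h' := congrArg Subtype.val h
      simp only [OneMemClass.coe_one, conj_eq_one_iff] at h'
      rw [h', orderOf_one] at hx
      exact hp.ne_one hx.symm)
    have hjG : (a : G) * (g * x * g⁻¹) * (a : G)⁻¹ = x ^ K ^ j := by
      simpa [hxNdef] using congrArg Subtype.val hj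
    obtain ⟨i, rfl | rfl⟩ := Nat.even_or_odd' j
    swap
    · refine absurd ?_ hnotK
      obtain ⟨b, hb⟩ := isConj_iff.1 (heven i)
      have hbG : (b : G) * x ^ K ^ (2 * i) * (b : G)⁻¹ = x := by
        simpa [hxNdef] using congrArg Subtype.val hb
      refine (isConj_iff.2 ⟨(b : G) * (a * g), ?_⟩ : IsConj x (x ^ K)).symm
      rw [pow_succ, pow_mul] at hjG
      calc (b : G) * (a * g) * x * ((b : G) * (a * g))⁻¹
          = (b : G) * ((a : G) * (g * x * g⁻¹) * (a : G)⁻¹) * (b : G)⁻¹ := by group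
        _ = ((b : G) * x ^ K ^ (2 * i) * (b : G)⁻¹) ^ K := by rw [hjG, conj_pow]
        _ = x ^ K := by rw [hbG]
    obtain ⟨b, hb⟩ := isConj_iff.1 (heven i)
    have hbG : (b : G) * x ^ K ^ (2 * i) * (b : G)⁻¹ = x := by
      simpa [hxNdef] using congrArg Subtype.val hb
    set c := (b : G) * (a * g) with hcdef
    have hc : c * x * c⁻¹ = x := by
      calc c * x * c⁻¹ = (b : G) * ((a : G) * (g * x * g⁻¹) * (a : G)⁻¹) * (b : G)⁻¹ := by
            rw [hcdef]; group
        _ = x := by rw [hjG, hbG]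
    rw [mul_inv_eq_iff_eq_mul] at hc
    have hcP : c • P = P := hfixP _ (by rw [← mul_smul, ← hc, mul_smul, hxfP])
    obtain ⟨t, -, ht⟩ : ∃ t ∈ Finset.range p, x ^ t • Q₀ = c • Q₀ := by
      rw [← Finset.mem_image, himg, Finset.mem_erase]
      exact ⟨fun h => hQ₀ (smul_left_cancel c (h.trans hcP.symm)), Finset.mem_univ _⟩
    set k := (x ^ t)⁻¹ * c with hk
    have hkx : Commute k x := by
      have h1 : Commute c x := hc
      exact (((Commute.refl x).pow_left t).inv_left).mul_left h1
    have hkK : k ∈ Kr := by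
      rw [hKrmem]
      intro Q
      by_cases hQ : Q = P
      · subst hQ
        refine hfixP _ ?_
        rw [← mul_smul, ← hkx.eq, mul_smul, hxfP]
      · obtain ⟨i', -, hi'⟩ := Finset.mem_image.1
          (show Q ∈ (Finset.range p).image (fun i => x ^ i • Q₀) by
            rw [himg]; exact Finset.mem_erase.2 ⟨hQ, Finset.mem_univ _⟩)
        rw [← hi', ← mul_smul, (hkx.pow_right i').eq, mul_smul]
        congr 1
        rw [hk, mul_smul, ← ht, inv_smul_smul]
    refine ⟨(b * a)⁻¹ * xN ^ t, k, hKc k hkK, ?_⟩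
    simp only [hk, hcdef, hxNdef, Subgroup.coe_mul, InvMemClass.coe_inv, SubmonoidClass.coe_pow]
    group
  let F : N →* G ⧸ Subgroup.center G := (QuotientGroup.mk' (Subgroup.center G)).comp N.subtype
  have hFs : Surjective F := fun q => by
    obtain ⟨g, rfl⟩ := QuotientGroup.mk'_surjective _ q
    obtain ⟨n, z, hz, rfl⟩ := hsurj g
    refine ⟨n, ?_⟩
    show (QuotientGroup.mk' (Subgroup.center G)) (n : G) = _
    rw [map_mul, show (QuotientGroup.mk' (Subgroup.center G)) z = 1 from
      (QuotientGroup.eq_one_iff z).2 hz, mul_one]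
  have hker : F.ker = Subgroup.center N := by
    ext n
    rw [MonoidHom.mem_ker]
    show ((n : G) : G ⧸ Subgroup.center G) = 1 ↔ _
    rw [QuotientGroup.eq_one_iff]
    exact ⟨fun h => Subgroup.mem_center_iff.2 fun m =>
      Subtype.ext (Subgroup.mem_center_iff.1 h m), hZle n⟩
  exact ⟨((QuotientGroup.quotientKerEquivOfSurjective F hFs).symm.trans
    (QuotientGroup.quotientMulEquivOfEq hker)).trans iN⟩

end Cfsg.Agent.Blocks.HalfDegree
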