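import Cfsg.Agent.Chars2.SmallDegreeOnce

/-!
When `p` divides the group order only once: the eigenvalues at `x` of a nonscalar character of
degree at most `(p - 1) / 2` avoid `1` and lie in one fusion orbit.
-/

set_option autoImplicit false
set_option linter.unusedSectionVars false
set_option linter.style.haveILetI false

namespace Cfsg.Agent.Chars2.Cyc

open Cfsg Cfsg.Agent Cfsg.Agent.Blocks Cfsg.Agent.BlockChar Function
open scoped ComplexConjugate

universe u

variable {G : Type u} [Group G] [Fintype G] {H : Subgroup G} [Fintype H] {p m K : ℕ}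
  [hp : Fact p.Prime] {M : Ideal AlgInt} [M.IsMaximal] {x : G} {σ : ℂ ≃+* ℂ}

namespace Once

/-- A character of small degree which is the same at `x` and `x ^ K` has `x` scalar. -/
theorem false_of_fixed_half (S : Once M p m K x σ H) {φ : IrrCharacter G}
    (hn : 2 * charDegree (φ : G → ℂ) + 1 ≤ p)
    (hns : ‖(φ : G → ℂ) x‖ ≠ charDegree (φ : G → ℂ))
    (h : ∀ j : ℕ, (φ : G → ℂ) (x ^ (j * K)) = (φ : G → ℂ) (x ^ j)) : False := by
  classical
  set μ : ZMod p → ℕ := S.eigMult φ with hμ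
  have h1 : ∀ a : ℕ, (∑ i : ZMod p, ∑ i' : ZMod p,
      if (a : ZMod p) * i = i' then μ i * μ i' else 0) = ∑ i : ZMod p, μ i * μ ((a : ZMod p) * i) :=
    fun a => Finset.sum_congr rfl fun i _ => by rw [Finset.sum_ite_eq, if_pos (Finset.mem_univ _)]
  have hK := S.sum_values_mul φ K
  have hone := S.sum_values_mul φ 1
  simp only [h] at hK
  simp only [mul_one] at hone
  rw [hK] at hone
  have h2 : ∑ i : ZMod p, μ i * μ ((K : ZMod p) * i) = ∑ i : ZMod p, μ i * μ i := by
    have h3 := Nat.cast_injective (R := ℂ)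
      (mul_left_cancel₀ (Nat.cast_ne_zero.2 hp.out.ne_zero) hone)
    rw [← hμ, h1, h1] at h3
    simpa using h3
  have h4 : ∑ i : ZMod p, μ ((K : ZMod p) * i) * μ ((K : ZMod p) * i) = ∑ i : ZMod p, μ i * μ i :=
    Fintype.sum_equiv (Equiv.mulLeft₀ _ S.K_ne_zero) _ _ fun i => rfl
  have h5 : ∑ i : ZMod p, ((μ ((K : ZMod p) * i) : ℤ) - μ i) ^ 2 = 0 := by
    have e1 : ∀ i : ZMod p, ((μ ((K : ZMod p) * i) : ℤ) - μ i) ^ 2 =
        ((μ ((K : ZMod p) * i) * μ ((K : ZMod p) * i) : ℕ) : ℤ) + ((μ i * μ i : ℕ) : ℤ) -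
          2 * ((μ i * μ ((K : ZMod p) * i) : ℕ) : ℤ) := fun i => by push_cast; ring
    simp only [e1, Finset.sum_sub_distrib, Finset.sum_add_distrib, ← Finset.mul_sum,
      ← Nat.cast_sum, h2, h4]
    ring
  have hinv : ∀ i, μ ((K : ZMod p) * i) = μ i := fun i => by
    have := (Finset.sum_eq_zero_iff_of_nonneg fun i _ => sq_nonneg _).1 h5 i (Finset.mem_univ i)
    rw [sq_eq_zero_iff, sub_eq_zero] at this
    exact_mod_cast this
  have hzero : ∀ i : ZMod p, i ≠ 0 → μ i = 0 := by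
    intro i hi
    by_contra hne
    have hall : ∀ r : ℕ, μ ((K : ZMod p) ^ r * i) = μ i := fun r => by
      induction r with
      | zero => rw [pow_zero, one_mul]
      | succ r ih => rw [pow_succ', mul_assoc, hinv, ih]
    have hsub : ∀ j ∈ Finset.univ.erase (0 : ZMod p), 1 ≤ μ j := fun j hj => by
      obtain ⟨r, -, hr⟩ := S.exists_pow_K (a := j * i⁻¹)
        (mul_ne_zero (Finset.mem_erase.1 hj).1 (inv_ne_zero hi))
      have := hall r
      rw [hr, mul_assoc, inv_mul_cancel₀ hi, mul_one] at this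
      omega
    have h6 := (Finset.sum_le_sum hsub).trans
      (Finset.sum_le_sum_of_subset (Finset.erase_subset _ _))
    rw [← S.degree_eig, Finset.sum_const, Finset.card_erase_of_mem (Finset.mem_univ _),
      Finset.card_univ, ZMod.card, smul_eq_mul, mul_one] at h6
    have := hp.out.two_le
    omega
  have hval := S.value_eig φ 1
  rw [pow_one, Finset.sum_eq_single (0 : ZMod p) (fun i _ hi => by
    rw [← hμ, hzero i hi]; simp) (fun h => absurd (Finset.mem_univ _) h)] at hval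
  have hdeg := S.degree_eig φ
  rw [Finset.sum_eq_single (0 : ZMod p) (fun i _ hi => hzero i hi)
    (fun h => absurd (Finset.mem_univ _) h)] at hdeg
  exact hns (by rw [hval, mul_zero, AddChar.map_zero_eq_one, mul_one, Complex.norm_natCast, hdeg])

/-- The eigenvalues at `x` of a character of small degree: no eigenvalue one, one orbit. -/
theorem half_char_shape (S : Once M p m K x σ H) (hK : ¬ IsConj (x ^ K) x) {φ : IrrCharacter G}
    (hn : 2 * charDegree (φ : G → ℂ) + 1 ≤ p)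
    (hns : ‖(φ : G → ℂ) x‖ ≠ charDegree (φ : G → ℂ)) :
    S.eigMult φ 0 = 0 ∧
      (∀ i : ZMod p, S.eigMult φ i ≠ 0 → S.eigMult φ ((K : ZMod p) * i) = 0) ∧
      ∃ e₁ : ZMod p, e₁ ≠ 0 ∧ S.eigMult φ e₁ ≠ 0 ∧ ∀ i : ZMod p, S.eigMult φ i ≠ 0 →
        ∃ a : ℕ, IsConj (x ^ K ^ a) x ∧ i = (K : ZMod p) ^ a * e₁ := by
  classical
  set n := charDegree (φ : G → ℂ) with hn'
  set B := blockOf M (φ : G → ℂ) with hB'
  have hB : IsPBlock M B := isPBlock_blockOf φ
  have hφB : φ ∈ B := mem_blockOf_self φ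
  have hd : 0 < blockDefect p B := by
    have hle : sInf ((fun χ : IrrCharacter G => (charDegree (χ : G → ℂ)).factorization p) '' B) ≤
        n.factorization p := Nat.sInf_le ⟨φ, hφB, rfl⟩
    have hz : n.factorization p = 0 := Nat.factorization_eq_zero_of_not_dvd fun h => by
      have := Nat.le_of_dvd (Blocks.charDegree_eq φ.2).2 h
      omega
    rw [blockDefect, S.vG]
    omega
  obtain ⟨b₀, hind⟩ := S.exists_induced hB hd
  obtain ⟨θ₀, hθ₀⟩ := block_nonempty hind.1
  obtain ⟨O⟩ := S.exists_shape hd hind hθ₀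
  have hφY : φ ∈ O.Y := by
    by_contra hφY
    refine S.false_of_fixed_half hn hns fun j => ?_
    have h := S.gal_value φ 1 (x ^ j)
    rw [iterate_one, O.fixed φ hφB hφY, pow_one, ← pow_mul] at h
    exact h.symm
  have ht := S.two_le_t hind O hK
  set h := (p - 1) / O.t with hh
  have hht : h * O.t = p - 1 := Nat.div_mul_cancel O.t_dvd
  have h2h : 2 * h ≤ p - 1 := by rw [← hht]; exact le_trans (le_of_eq (mul_comm _ _)) (Nat.mul_le_mul_left h ht)
  have hle : ∀ b, IsPBlock M b → blockMult φ b ≤ n := fun b hb => by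
    rw [hn', S.degree_blocks]
    refine le_trans ?_ (Finset.single_le_sum (f := fun b => blockDeg b * blockMult φ b)
      (fun _ _ => Nat.zero_le _) (mem_blockFinset.2 hb))
    exact Nat.le_mul_of_pos_left _ (S.blockDeg_pos hb)
  have hni : ∀ b, IsPBlock M b → ¬ IsInducedBlock M H b B → blockMult φ b = 0 := fun b hb hbni => by
    have h1 := S.fix_noninducing hB hφB hb hbni
    have h2 := hle b hb
    rcases Nat.eq_zero_or_pos (S.blockFix φ b) with e | e
    · rw [← h1, e, mul_zero]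
    · have := Nat.le_mul_of_pos_right p e
      omega
  have hin : ∀ b, IsInducedBlock M H b B → S.blockFix φ b = 0 ∧ blockMult φ b = h := fun b hb => by
    have h1 := S.fix_inducing_Y hind O hb hφY
    have h2 := hle b hb.1
    rw [← hh] at h1
    have h3 : S.blockFix φ b = 0 := by
      by_contra hne
      have h4 : p * 1 ≤ p * S.blockFix φ b := Nat.mul_le_mul_left p (Nat.pos_of_ne_zero hne)
      rcases O.sign φ hφB with e | e <;> rw [e] at h1 <;> omega
    refine ⟨h3, ?_⟩
    rw [h3, mul_zero, Nat.cast_zero] at h1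
    rcases O.sign φ hφB with e | e <;> rw [e] at h1
    · have : 0 < h := Nat.div_pos (Nat.le_of_dvd (by have := hp.out.two_le; omega) O.t_dvd) O.t_pos
      omega
    · omega
  have hnz : ∀ φ' : IrrCharacter H, mult φ φ' ≠ 0 → S.expo φ' ≠ 0 := by
    intro φ' hne he
    set b := blockOf M (φ' : H → ℂ)
    have hb : IsPBlock M b := isPBlock_blockOf φ'
    by_cases hbi : IsInducedBlock M H b B
    · have h1 : mult φ φ' ≤ S.blockFix φ b :=
        Finset.single_le_sum (f := fun φ' => mult φ φ') (fun _ _ => Nat.zero_le _)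
          (Finset.mem_filter.2 ⟨mem_bf.2 (mem_blockOf_self φ'), he⟩)
      have := (hin b hbi).1
      omega
    · have h1 : mult φ φ' ≤ blockMult φ b :=
        Finset.single_le_sum (f := fun φ' => mult φ φ') (fun _ _ => Nat.zero_le _)
          (mem_bf.2 (mem_blockOf_self φ'))
      have := hni b hb hbi
      omega
  -- one orbit in `b₀`
  obtain ⟨φ₁, hφ₁, hne₁⟩ : ∃ φ₁ ∈ b₀, mult φ φ₁ ≠ 0 := by
    by_contra hno
    push Not at hno
    have h1 := (hin b₀ hind).2
    rw [blockMult, Finset.sum_eq_zero fun φ' hφ' => hno φ' (mem_bf.1 hφ')] at h1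
    have : 0 < h := Nat.div_pos (Nat.le_of_dvd (by have := hp.out.two_le; omega) O.t_dvd) O.t_pos
    omega
  have he1 := hnz φ₁ hne₁
  have hgalb : ∀ r : ℕ, (gal σ)^[r] φ₁ ∈ b₀ := fun r => by
    induction r with
    | zero => exact hφ₁
    | succ r ih =>
      rw [iterate_succ_apply']
      exact (gal_mem_block S.hm S.hpM S.hcardH S.hσ hind.1).2 ih
  have hexp : ∀ r : ℕ, S.expo ((gal σ)^[r] φ₁) = (K : ZMod p) ^ r * S.expo φ₁ := fun r => by
    induction r with
    | zero => rw [pow_zero, one_mul]; rfl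
    | succ r ih => rw [iterate_succ_apply', S.expo_gal, ih, pow_succ', mul_assoc]
  have hmult : ∀ r : ℕ, mult ((gal σ)^[r] φ) ((gal σ)^[r] φ₁) = mult φ φ₁ := fun r => by
    induction r with
    | zero => rfl
    | succ r ih => rw [iterate_succ_apply', iterate_succ_apply', S.mult_gal, ih]
  set Φ : Finset (IrrCharacter H) := (Finset.range h).image fun j => (gal σ)^[O.t * j] φ₁ with hΦ
  have hΦb : Φ ⊆ bf b₀ := fun φ' hφ' => by
    obtain ⟨j, -, rfl⟩ := Finset.mem_image.1 hφ'
    exact mem_bf.2 (hgalb _)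
  have hΦcard : Φ.card = h := by
    rw [hΦ, Finset.card_image_of_injOn, Finset.card_range]
    intro i hi j hj he
    have h1 := congrArg S.expo he
    simp only [hexp] at h1
    have hlt : ∀ i ∈ Finset.range h, O.t * i < p - 1 := fun i hi => by
      rw [← hht, mul_comm h]
      exact Nat.mul_lt_mul_of_pos_left (Finset.mem_range.1 hi) O.t_pos
    exact Nat.eq_of_mul_eq_mul_left O.t_pos (pow_injOn_Iio_orderOf (x := (K : ZMod p))
      (show O.t * i ∈ Set.Iio _ by rw [S.ord]; exact hlt i hi)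
      (show O.t * j ∈ Set.Iio _ by rw [S.ord]; exact hlt j hj) (mul_right_cancel₀ he1 h1))
  have hΦpos : ∀ φ' ∈ Φ, 1 ≤ mult φ φ' := fun φ' hφ' => by
    obtain ⟨j, -, rfl⟩ := Finset.mem_image.1 hφ'
    have := hmult (O.t * j)
    rw [show (gal σ)^[O.t * j] φ = φ from IsPeriodicPt.mul_const (O.fixed_t φ hφB) j] at this
    omega
  have hb0 : ∀ φ' ∈ b₀, mult φ φ' ≠ 0 →
      ∃ j, S.expo φ' = (K : ZMod p) ^ (O.t * j) * S.expo φ₁ := by
    intro φ' hφ' hne
    by_cases hmem : φ' ∈ Φ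
    · obtain ⟨j, -, rfl⟩ := Finset.mem_image.1 hmem
      exact ⟨j, hexp _⟩
    exfalso
    have h1 := Finset.sum_le_sum hΦpos
    rw [Finset.sum_const, smul_eq_mul, mul_one, hΦcard] at h1
    have h2 : mult φ φ' + ∑ φ'' ∈ Φ, mult φ φ'' ≤ blockMult φ b₀ := by
      rw [← Finset.sum_insert hmem]
      exact Finset.sum_le_sum_of_subset (Finset.insert_subset (mem_bf.2 hφ') hΦb)
    rw [(hin b₀ hind).2] at h2
    omega
  have hall : ∀ φ' : IrrCharacter H, mult φ φ' ≠ 0 →
      ∃ a : ℕ, IsConj (x ^ K ^ a) x ∧ S.expo φ' = (K : ZMod p) ^ a * S.expo φ₁ := by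
    intro φ' hne
    set b := blockOf M (φ' : H → ℂ)
    have hb : IsPBlock M b := isPBlock_blockOf φ'
    have hbi : IsInducedBlock M H b B := by
      by_contra hbi
      have h1 : mult φ φ' ≤ blockMult φ b :=
        Finset.single_le_sum (f := fun φ' => mult φ φ') (fun _ _ => Nat.zero_le _)
          (mem_bf.2 (mem_blockOf_self φ'))
      have := hni b hb hbi
      omega
    obtain ⟨g, hg, hgP, hgb⟩ :=
      (first_main_at S.hpM hB (S.isDefectGroup_zpowers hB hd).2 S.sup_eq_H).2 b b₀ hbi hind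
    obtain ⟨r, -, hxr⟩ := S.exists_conj_pow hgP
    have hmem : irrEquiv (normEquiv hg) φ' ∈ b₀ := by
      have : φ' ∈ mapSet (normEquiv hg) b₀ := hgb.symm ▸ mem_blockOf_self φ'
      exact this
    obtain ⟨j, hj⟩ := hb0 _ hmem (by rwa [S.mult_conj hg φ φ'])
    refine ⟨r + O.t * j, ?_, by rw [S.expo_conj hg hxr φ', hj, pow_add, mul_assoc]⟩
    rcases S.dichotomy hind (O.t * j) with ⟨-, n', hn', hxr', -⟩ | ⟨h0, -⟩
    · refine isConj_iff.2 ⟨g * n', ?_⟩
      have e1 : n' * x ^ K ^ (O.t * j) * n'⁻¹ = x := by rw [← hxr']; group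
      have e2 : g * x ^ K ^ r * g⁻¹ = x := by rw [← hxr]; group
      have e3 : n' * x ^ K ^ (r + O.t * j) * n'⁻¹ = x ^ K ^ r := by
        rw [add_comm, pow_add, pow_mul, ← conj_pow, e1]
      rw [mul_inv_rev, show g * n' * x ^ K ^ (r + O.t * j) * (n'⁻¹ * g⁻¹) =
        g * (n' * x ^ K ^ (r + O.t * j) * n'⁻¹) * g⁻¹ by group, e3, e2]
    · rw [Finset.sum_congr rfl fun χ _ => by rw [(O.period _).2 (dvd_mul_right O.t j) χ],
        sum_dB S hind hind.1, if_pos rfl] at h0
      exact absurd h0 (Nat.cast_ne_zero.2 hp.out.ne_zero)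
  refine ⟨?_, fun i hi => ?_, ?_⟩
  · rw [S.eig_zero_blocks]
    refine Finset.sum_eq_zero fun b hb => ?_
    have hb' := mem_blockFinset.1 hb
    by_cases hbi : IsInducedBlock M H b B
    · rw [(hin b hbi).1, mul_zero]
    · have h1 := S.blockFix_le φ b
      rw [hni b hb' hbi] at h1
      rw [Nat.le_zero.1 h1, mul_zero]
  · by_contra hne
    have hex : ∀ i, S.eigMult φ i ≠ 0 → ∃ φ', S.expo φ' = i ∧ mult φ φ' ≠ 0 := fun i hi => by
      obtain ⟨φ', hφ', hne⟩ := Finset.exists_ne_zero_of_sum_ne_zero hi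
      exact ⟨φ', (Finset.mem_filter.1 hφ').2, left_ne_zero_of_mul hne⟩
    obtain ⟨φ', rfl, hne'⟩ := hex i hi
    obtain ⟨φ'', he'', hne''⟩ := hex _ hne
    obtain ⟨a, ha, hae⟩ := hall φ' hne'
    obtain ⟨a', ha', hae'⟩ := hall φ'' hne''
    rw [hae, hae', ← mul_assoc, ← pow_succ'] at he''
    have h1 := mul_right_cancel₀ he1 he''
    have h2 : x ^ K ^ a' = x ^ K ^ (a + 1) := by
      rw [S.pow_eq_pow_iff']
      push_cast
      exact h1
    obtain ⟨c, hc⟩ := isConj_iff.1 ha
    refine hK (IsConj.trans (IsConj.symm (isConj_iff.2 ⟨c, ?_⟩)) (h2 ▸ ha'))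
    rw [pow_succ, pow_mul, ← conj_pow, hc]
  · refine ⟨S.expo φ₁, he1, ?_, fun i hi => ?_⟩
    · intro h0
      have h1 := (Finset.sum_eq_zero_iff.1 h0) φ₁ (Finset.mem_filter.2 ⟨Finset.mem_univ _, rfl⟩)
      exact mul_ne_zero hne₁ (Blocks.charDegree_eq φ₁.2).2.ne' h1
    · obtain ⟨φ', hφ', hne⟩ := Finset.exists_ne_zero_of_sum_ne_zero hi
      obtain ⟨a, ha, hae⟩ := hall φ' (left_ne_zero_of_mul hne)
      exact ⟨a, ha, ((Finset.mem_filter.1 hφ').2).symm.trans hae⟩

/-- When no two different powers of `x` are conjugate, a character of small degree has `x` scalar. -/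
theorem scalar_of_no_fusion (S : Once M p m K x σ H) (hp3 : 3 ≤ p)
    (hfus : ∀ a : ℕ, IsConj (x ^ K ^ a) x → x ^ K ^ a = x) {φ : IrrCharacter G}
    (hn : 2 * charDegree (φ : G → ℂ) + 1 ≤ p) :
    ‖(φ : G → ℂ) x‖ = charDegree (φ : G → ℂ) := by
  classical
  by_contra hns
  have hK : ¬ IsConj (x ^ K) x := fun hc => by
    have h := hfus 1 (by rw [pow_one]; exact hc)
    rw [pow_one] at h
    have h1 : ((K : ℕ) : ZMod p) = ((1 : ℕ) : ZMod p) :=
      S.pow_eq_pow_iff'.1 (by rw [pow_one]; exact h)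
    have h2 := S.ord
    rw [h1, Nat.cast_one, orderOf_one] at h2
    omega
  obtain ⟨-, -, e₁, -, -, hall⟩ := S.half_char_shape hK hn hns
  have hz : ∀ i : ZMod p, i ≠ e₁ → S.eigMult φ i = 0 := fun i hi => by
    by_contra hne
    obtain ⟨a, ha, hae⟩ := hall i hne
    have h1 : ((K ^ a : ℕ) : ZMod p) = ((1 : ℕ) : ZMod p) :=
      S.pow_eq_pow_iff'.1 (by rw [pow_one]; exact hfus a ha)
    rw [Nat.cast_pow, Nat.cast_one] at h1
    exact hi (by rw [hae, h1, one_mul])
  have hval := S.value_eig φ 1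
  rw [pow_one, Finset.sum_eq_single e₁ (fun i _ hi => by rw [hz i hi, Nat.cast_zero, zero_mul])
    (fun h => absurd (Finset.mem_univ _) h)] at hval
  have hdeg := S.degree_eig φ
  rw [Finset.sum_eq_single e₁ (fun i _ hi => hz i hi)
    (fun h => absurd (Finset.mem_univ _) h)] at hdeg
  refine hns ?_
  rw [hval, norm_mul, Complex.norm_natCast, hdeg]
  have : ‖zc p (((1 : ℕ) : ZMod p) * e₁)‖ = 1 :=
    Complex.norm_eq_one_of_pow_eq_one (n := p) (by
      rw [← AddChar.map_nsmul_eq_pow, nsmul_eq_mul, ZMod.natCast_self, zero_mul,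
        AddChar.map_zero_eq_one]) hp.out.ne_zero
  rw [this, mul_one]


end Once

end Cfsg.Agent.Chars2.Cyc
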